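import Cfsg.Agent.H90.PQ.Iteration

/-! An elementary abelian operator group. -/

set_option autoImplicit false
open scoped Pointwise commutatorElement IsMulCommutative

namespace Cfsg.Agent.H90.PQ

open Cfsg.Agent.H20

variable {G : Type*} [Group G]

/-- The values of the characters. -/
abbrev Mu (s : ℕ) : Type := Multiplicative (ZMod s)

/-- The kernel of a character, in the ambient group. -/
def kerSub {S : Subgroup G} {s : ℕ} (l : S →* Mu s) : Subgroup G := l.ker.map S.subtype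

theorem mem_kerSub {S : Subgroup G} {s : ℕ} {l : S →* Mu s} {x : G} :
    x ∈ kerSub l ↔ ∃ h : x ∈ S, l ⟨x, h⟩ = 1 := by
  constructor
  · rintro ⟨⟨y, hy⟩, hl, rfl⟩
    exact ⟨hy, hl⟩
  · rintro ⟨h, hl⟩
    exact ⟨⟨x, h⟩, hl, rfl⟩

/-- The normalizer acts on the characters. -/
@[reducible] def charAction (S : Subgroup G) (s : ℕ) :
    MulAction (Subgroup.normalizer (S : Set G)) (S →* Mu s) where
  smul g l := l.comp (S.normalizerMonoidHom g⁻¹).toMonoidHom
  one_smul l := MonoidHom.ext fun x => by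
    change l (S.normalizerMonoidHom 1⁻¹ x) = l x
    rw [inv_one, map_one]; rfl
  mul_smul g k l := MonoidHom.ext fun x => by
    change l (S.normalizerMonoidHom (g * k)⁻¹ x) =
      l (S.normalizerMonoidHom k⁻¹ (S.normalizerMonoidHom g⁻¹ x))
    rw [_root_.mul_inv_rev, map_mul]; rfl

variable [Finite G]

/-- A group of prime order acting on a set of size prime to it has a fixed point. -/
theorem exists_fixed_of_prime {N X : Type*} [Group N] [MulAction N X] {P : Subgroup N} {p : ℕ}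
    (hp : p.Prime) (hc : Nat.card P = p) (O : Set X) [Finite O]
    (hinv : ∀ x ∈ P, ∀ o ∈ O, x • o ∈ O) (hndvd : ¬ p ∣ Nat.card O) :
    ∃ o ∈ O, ∀ x ∈ P, x • o = o := by
  haveI := Fact.mk hp
  letI : MulAction P O :=
    { smul := fun x o => ⟨(x : N) • (o : X), hinv _ x.2 _ o.2⟩
      one_smul := fun o => Subtype.ext (one_smul N (o : X))
      mul_smul := fun x y o => Subtype.ext (mul_smul (x : N) (y : N) (o : X)) }
  obtain ⟨o, ho⟩ := (IsPGroup.of_card (n := 1) (by rw [hc, pow_one]) : IsPGroup p P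
    ).nonempty_fixed_point_of_prime_not_dvd_card O hndvd
  exact ⟨o, o.2, fun x hx => congrArg Subtype.val (ho ⟨x, hx⟩)⟩

/-- No group of order `pq` acts without fixed points on this configuration. -/
theorem abelian_contra {A Q V S T : Subgroup G} {p q r s : ℕ} [IsMulCommutative S]
    (h : IsPQ A Q p q) (hr : r.Prime) (hs : s.Prime) (hrs : r ≠ s)
    (hV : Cfsg.IsElementaryAbelian r V) (hexp : ∀ z ∈ S, z ^ s = 1)
    (hAV : A ≤ Subgroup.normalizer (V : Set G)) (hSV : S ≤ Subgroup.normalizer (V : Set G))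
    (hTV : T ≤ Subgroup.normalizer (V : Set G))
    (hAS : A ≤ Subgroup.normalizer (S : Set G)) (hAT : A ≤ Subgroup.normalizer (T : Set G))
    (hTS : T ≤ Subgroup.normalizer (S : Set G))
    (hCV : V ⊓ Subgroup.centralizer (A : Set G) = ⊥)
    (hSA : S ⊓ Subgroup.centralizer (A : Set G) = ⊥)
    (hTA : T ⊓ Subgroup.centralizer (A : Set G) = ⊥)
    (hCS : V ⊓ Subgroup.centralizer (S : Set G) = ⊥) (hVne : V ≠ ⊥)
    (hST : ⁅S, T⁆ = S) (hcopST : (Nat.card S).Coprime (Nat.card T))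
    (hcopSV : (Nat.card S).Coprime (Nat.card V))
    (hAScop : (Nat.card A).Coprime (Nat.card S)) (hATcop : (Nat.card A).Coprime (Nat.card T))
    (hrA : r.Coprime (p * q)) (hsA : s.Coprime (p * q)) : False := by
  classical
  haveI := hV.1
  haveI := Fact.mk hs
  have hpS : p.Coprime (Nat.card S) :=
    hAScop.coprime_dvd_left (h.card_A ▸ dvd_mul_right p q)
  have hqS : q.Coprime (Nat.card S) :=
    hAScop.coprime_dvd_left (h.card_A ▸ dvd_mul_left q p)
  have hpT : ¬ p ∣ Nat.card T := (h.hp.coprime_iff_not_dvd).mp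
    (hATcop.coprime_dvd_left (h.card_A ▸ dvd_mul_right p q))
  have hqT : ¬ q ∣ Nat.card T := (h.hq.coprime_iff_not_dvd).mp
    (hATcop.coprime_dvd_left (h.card_A ▸ dvd_mul_left q p))
  set N := Subgroup.normalizer (S : Set G)
  letI := charAction S s
  haveI : Finite (S →* Mu s) := Finite.of_injective (fun f => (f : S → Mu s)) DFunLike.coe_injective
  have hSN : S ≤ N := Subgroup.le_normalizer
  have happ : ∀ (g : N) (l : S →* Mu s) (x : S),
      (g • l) x = l (S.normalizerMonoidHom g⁻¹ x) := fun g l x => rfl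
  -- `X` kills `[S, X]` when it fixes the character
  have hkill : ∀ (X : Subgroup G), X ≤ N → ∀ l : S →* Mu s,
      (∀ g : N, (g : G) ∈ X → g • l = l) → ⁅S, X⁆ ≤ kerSub l := by
    intro X hX l hl
    rw [Subgroup.commutator_le]
    intro x hx y hy
    have hyx : y * x⁻¹ * y⁻¹ ∈ S := (Subgroup.mem_normalizer_iff.mp (hX hy) _).mp (S.inv_mem hx)
    have hmem : ⁅x, y⁆ ∈ S := by
      rw [commutatorElement_def, mul_assoc, mul_assoc, ← mul_assoc y]
      exact S.mul_mem hx hyx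
    refine mem_kerSub.mpr ⟨hmem, ?_⟩
    have e := DFunLike.congr_fun (hl ⟨y⁻¹, inv_mem (hX hy)⟩ (X.inv_mem hy)) ⟨x⁻¹, S.inv_mem hx⟩
    rw [happ] at e
    rw [show (⟨⁅x, y⁆, hmem⟩ : S) = ⟨x, hx⟩ *
        S.normalizerMonoidHom (⟨y⁻¹, inv_mem (hX hy)⟩ : N)⁻¹ ⟨x⁻¹, S.inv_mem hx⟩ from
      Subtype.ext (by
        change ⁅x, y⁆ = x * ((y⁻¹)⁻¹ * x⁻¹ * (y⁻¹)⁻¹⁻¹)
        simp only [commutatorElement_def]; group), map_mul, e, ← map_mul]
    rw [show (⟨x, hx⟩ : S) * ⟨x⁻¹, S.inv_mem hx⟩ = 1 from Subtype.ext (by simp), map_one]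
  have hone : ∀ l : S →* Mu s, S ≤ kerSub l → l = 1 := fun l hl => MonoidHom.ext fun x => by
    obtain ⟨_, hx⟩ := mem_kerSub.mp (hl x.2)
    exact hx
  -- a character fixed by `A` is trivial
  have hAfix : ∀ l : S →* Mu s, (∀ g : N, (g : G) ∈ A → g • l = l) → l = 1 := by
    intro l hl
    refine hone l ?_
    have hd := commutator_sup_centralizer hAS hAScop (Or.inl h.isSolvable)
    rw [hSA, sup_bot_eq] at hd
    exact hd.ge.trans (hkill A hAS l hl)
  -- fixing a character from generators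
  have hsup : ∀ (X Y : Subgroup G) (l : S →* Mu s), X ≤ N → Y ≤ N →
      (∀ g : N, (g : G) ∈ X → g • l = l) → (∀ g : N, (g : G) ∈ Y → g • l = l) →
      ∀ g : N, (g : G) ∈ X ⊔ Y → g • l = l := by
    intro X Y l hX hY h1 h2 g hg
    have hle : X ⊔ Y ≤ (MulAction.stabilizer N l).map N.subtype := sup_le
      (fun x hx => ⟨⟨x, hX hx⟩, h1 ⟨x, hX hx⟩ hx, rfl⟩)
      (fun x hx => ⟨⟨x, hY hx⟩, h2 ⟨x, hY hx⟩ hx, rfl⟩)
    obtain ⟨g', hg', e⟩ := hle hg
    obtain rfl : g' = g := Subtype.ext e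
    exact hg'
  let InX : (S →* Mu s) → Prop := fun l =>
    l ≠ 1 ∧ V ⊓ Subgroup.centralizer (kerSub l : Set G) ≠ ⊥
  -- the two types
  have htypes : ∀ l, InX l → (∀ g : N, (g : G) ∈ Q → g • l = l) ∨
      ∃ P : Subgroup G, P ≤ A ∧ Nat.card P = p ∧ ∀ g : N, (g : G) ∈ P → g • l = l := by
    rintro l ⟨hl1, hlW⟩
    set K := kerSub l with hK
    have hKS : K ≤ S := Subgroup.map_subtype_le _
    have hKs : K.relIndex S = s := by
      have hsurj : l.range = ⊤ := by
        have hd : Nat.card l.range ∣ s := by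
          have := Subgroup.card_subgroup_dvd_card l.range
          simpa [Mu] using this
        rcases (Nat.dvd_prime hs).mp hd with e | e
        · exact absurd (MonoidHom.ext fun x => by
            have hx : l x ∈ l.range := ⟨x, rfl⟩
            rwa [Subgroup.card_eq_one.mp e, Subgroup.mem_bot] at hx) hl1
        · exact Subgroup.eq_top_of_card_eq _ (by rw [e]; simp [Mu])
      change (K.subgroupOf S).index = s
      rw [hK, kerSub, Subgroup.subgroupOf, Subgroup.comap_map_eq_self_of_injective S.subtype_injective,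
        Subgroup.index_ker, hsurj]
      simp [Mu]
    set W := V ⊓ Subgroup.centralizer (K : Set G)
    have hWel : Cfsg.IsElementaryAbelian r W := ⟨IsMulCommutative.of_comm fun a b => Subtype.ext
      (congrArg Subtype.val (mul_comm' (⟨a, a.2.1⟩ : V) ⟨b, b.2.1⟩) :), fun a ha => hV.2 a ha.1⟩
    have hSK : S ≤ Subgroup.normalizer (K : Set G) := by
      rw [Subgroup.le_normalizer_iff]
      intro x hx k hk
      rwa [show x * k = k * x from congrArg Subtype.val (mul_comm' (⟨x, hx⟩ : S) ⟨k, hKS hk⟩),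
        mul_inv_cancel_right]
    have hSW : S ≤ Subgroup.normalizer (W : Set G) :=
      le_normalizer_inf hSV (le_normalizer_centralizer hSK)
    -- `C_S(W) = K`
    have hCK : ∀ y ∈ S, y ∈ Subgroup.centralizer (W : Set G) → y ∈ K := by
      intro y hy hyW
      rcases eq_of_relIndex_prime (U := S ⊓ Subgroup.centralizer (W : Set G)) hs hKs
        (fun k hk => ⟨hKS hk, Subgroup.mem_centralizer_iff.mpr fun w hw =>
          (Subgroup.mem_centralizer_iff.mp hw.2 k hk).symm⟩) inf_le_left with e | e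
      · exact e.le ⟨hy, hyW⟩
      · refine absurd ?_ hlW
        rw [eq_bot_iff]
        intro w hw
        exact hCS.le ⟨hw.1, Subgroup.mem_centralizer_iff.mpr fun z hz =>
          (Subgroup.mem_centralizer_iff.mp (e.ge hz).2 w hw).symm⟩
    have hR1 : ∀ (X : Subgroup G) (m : ℕ), m.Prime → Nat.card X = m → X ≤ A →
        X ≤ Subgroup.normalizer (K : Set G) → W ⊓ Subgroup.centralizer (X : Set G) = ⊥ →
        ∀ g : N, (g : G) ∈ X → g • l = l := by
      intro X m hm hXc hXA hXK hCX g hg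
      have hmA : m ∣ p * q := by rw [← h.card_A, ← hXc]; exact Subgroup.card_dvd_of_le hXA
      have hc := commutator_le_centralizer_of_no_exception hr hs hm hrs
        (fun e => hr.ne_one (Nat.eq_one_of_dvd_coprimes hrA dvd_rfl (e ▸ hmA)))
        (fun e => hs.ne_one (Nat.eq_one_of_dvd_coprimes hsA dvd_rfl (e ▸ hmA)))
        hXc (fun z => ⟨1, Subtype.ext (by simpa using hexp z z.2)⟩) (hXA.trans hAS) hWel
        (le_normalizer_inf (hXA.trans hAV) (le_normalizer_centralizer hXK)) hSW hCX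
        (fun _ _ u hu u' hu' => by
          rw [commutatorElement_eq_one_iff_mul_comm.mpr
            (congrArg Subtype.val (mul_comm' (⟨u, hu⟩ : S) ⟨u', hu'⟩))]
          exact one_mem _)
      refine MonoidHom.ext fun x => ?_
      rw [happ]
      have hmem : ((S.normalizerMonoidHom g⁻¹ x : S) : G) * (x : G)⁻¹ ∈ K := by
        refine hCK _ (S.mul_mem (Subtype.prop _) (S.inv_mem x.2)) (hc ?_)
        have e : ((S.normalizerMonoidHom g⁻¹ x : S) : G) * (x : G)⁻¹ = ⁅((g⁻¹ : N) : G), (x : G)⁆ := by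
          rw [commutatorElement_def]
          rfl
        rw [e]
        exact Subgroup.commutator_mem_commutator (by simpa using X.inv_mem hg) x.2
      obtain ⟨_, hl'⟩ := mem_kerSub.mp hmem
      have : l (S.normalizerMonoidHom g⁻¹ x * x⁻¹) = 1 := hl'
      rwa [map_mul, map_inv l, mul_inv_eq_one] at this
    rcases hyperplane_cases h hs hexp hAV hAS hSV hCS hCV hSA hcopSV hpS hqS hKS hKs hlW with
      ⟨hQK, hQW⟩ | ⟨P, hP, hPc, hPK, hPW⟩
    · exact Or.inl (hR1 Q q h.hq h.card_Q h.le hQK hQW)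
    · exact Or.inr ⟨P, hP, hPc, hR1 P p h.hp hPc hP hPK hPW⟩
  -- orbits under `T`
  set T' : Subgroup N := T.subgroupOf N
  have hT' : Nat.card T' = Nat.card T := Nat.card_congr (Subgroup.subgroupOfEquivOfLe hTS).toEquiv
  have horbX : ∀ l, InX l → ∀ μ ∈ MulAction.orbit T' l, InX μ := by
    rintro l ⟨hl1, hlW⟩ _ ⟨⟨g, hg⟩, rfl⟩
    refine ⟨fun e => hl1 ((MulAction.injective g) (e.trans (MonoidHom.ext fun x => rfl))), ?_⟩
    intro hbot
    refine hlW (eq_bot_iff.mpr fun v hv => ?_)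
    have hgV : (g : G) ∈ Subgroup.normalizer (V : Set G) := hTV hg
    have hmem : (g : G) * v * (g : G)⁻¹ ∈ (⊥ : Subgroup G) := by
      rw [← hbot]
      refine ⟨(Subgroup.mem_normalizer_iff.mp hgV v).mp hv.1, Subgroup.mem_centralizer_iff.mpr ?_⟩
      intro k hk
      obtain ⟨hkS, hk1⟩ := mem_kerSub.mp hk
      have hk' : (g : G)⁻¹ * k * g ∈ kerSub l := by
        refine mem_kerSub.mpr ⟨(Subgroup.mem_normalizer_iff''.mp g.2 k).mp hkS, ?_⟩
        change (g • l) ⟨k, hkS⟩ = 1 at hk1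
        rw [happ] at hk1
        rw [← hk1]
        refine congrArg l (Subtype.ext ?_)
        change (g : G)⁻¹ * k * g = ((g⁻¹ : N) : G) * k * ((g⁻¹ : N) : G)⁻¹
        rw [Subgroup.coe_inv, inv_inv]
      have := Subgroup.mem_centralizer_iff.mp hv.2 _ hk'
      calc k * ((g : G) * v * (g : G)⁻¹) = g * ((g : G)⁻¹ * k * g * v) * (g : G)⁻¹ := by group
        _ = _ := by rw [this]; group
    rw [Subgroup.mem_bot, mul_inv_eq_one, mul_eq_left] at hmem
    rw [hmem]
    exact one_mem _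
  have horbinv : ∀ (X : Subgroup G), X ≤ A → ∀ (l μ : S →* Mu s), μ ∈ MulAction.orbit T' l →
      (∀ g : N, (g : G) ∈ X → g • μ = μ) →
      ∀ g : N, (g : G) ∈ X → ∀ ν ∈ MulAction.orbit T' l, g • ν ∈ MulAction.orbit T' l := by
    intro X hX l μ hμ hfix g hg ν hν
    rw [← MulAction.orbit_eq_iff.mpr hμ] at hν ⊢
    obtain ⟨τ, rfl⟩ := hν
    have hτ : g * (τ : N) * g⁻¹ ∈ T' := Subgroup.mem_subgroupOf.mpr (by
      simpa using conj_mem_of_le_normalizer hAT (hX hg) (Subgroup.mem_subgroupOf.mp τ.2))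
    refine ⟨⟨_, hτ⟩, ?_⟩
    change (g * (τ : N) * g⁻¹) • μ = g • ((τ : N) • μ)
    conv_rhs => rw [← mul_smul]
    rw [mul_smul, show g⁻¹ • μ = μ from inv_smul_eq_iff.mpr (hfix g hg).symm]
  have horbdvd : ∀ l : S →* Mu s, Nat.card (MulAction.orbit T' l) ∣ Nat.card T := fun l => by
    rw [Nat.card_congr (MulAction.orbitEquivQuotientStabilizer T' l), ← hT']
    exact Subgroup.card_quotient_dvd_card _
  -- no character in the set is fixed by `Q`
  have noQ : ∀ l, InX l → ¬ ∀ g : N, (g : G) ∈ Q → g • l = l := by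
    intro l hl hlQ
    have hQN : Q ≤ N := h.le.trans hAS
    set CT : Subgroup N := (T ⊓ Subgroup.centralizer (Q : Set G)).subgroupOf N
    have hQfix : ∀ μ ∈ MulAction.orbit T' l, (∀ g : N, (g : G) ∈ Q → g • μ = μ) →
        μ ∈ MulAction.orbit CT l := by
      rintro _ ⟨⟨τ, hτ⟩, rfl⟩ hfix
      set St : Subgroup G := (T' ⊓ MulAction.stabilizer N l).map N.subtype
      have hStT : St ≤ T := by rintro _ ⟨y, hy, rfl⟩; exact hy.1
      have hQSt : Q ≤ Subgroup.normalizer (St : Set G) := by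
        rw [Subgroup.le_normalizer_iff]
        rintro u hu _ ⟨y, hy, rfl⟩
        refine ⟨⟨u, hQN hu⟩ * y * ⟨u, hQN hu⟩⁻¹, ⟨?_, ?_⟩, rfl⟩
        · exact Subgroup.mem_subgroupOf.mpr (by
            simpa using conj_mem_of_le_normalizer (h.le.trans hAT) hu hy.1)
        · change _ • l = l
          rw [mul_smul, mul_smul,
            show (⟨u, hQN hu⟩ : N)⁻¹ • l = l from inv_smul_eq_iff.mpr (hlQ ⟨u, hQN hu⟩ hu).symm,
            show y • l = l from hy.2, hlQ ⟨u, hQN hu⟩ hu]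
      haveI := Fact.mk h.hq
      obtain ⟨c, hcT, hcS⟩ := H20.exists_fixed_mem_coset (A := Q) (K := T) (N := St)
        (hATcop.coprime_dvd_left (Subgroup.card_dvd_of_le h.le))
        (Or.inl (by
          haveI := isCyclic_of_prime_card h.card_Q
          exact Group.isSolvable_of_comm fun a b => mul_comm' a b))
        hStT hQSt (Subgroup.mem_subgroupOf.mp hτ) fun u hu => by
          refine ⟨τ⁻¹ * (⟨u, hQN hu⟩ * τ * ⟨u, hQN hu⟩⁻¹), ⟨?_, ?_⟩, by simp⟩
          · refine Subgroup.mem_subgroupOf.mpr ?_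
            simpa using T.mul_mem (T.inv_mem hτ)
              (conj_mem_of_le_normalizer (h.le.trans hAT) hu hτ)
          · change _ • l = l
            rw [mul_smul, mul_smul, mul_smul, inv_smul_eq_iff,
              show (⟨u, hQN hu⟩ : N)⁻¹ • l = l from inv_smul_eq_iff.mpr (hlQ ⟨u, hQN hu⟩ hu).symm]
            exact hfix ⟨u, hQN hu⟩ hu
      obtain ⟨y, hy, hyc⟩ := hcS
      refine ⟨⟨⟨c, hTS hcT.1⟩, Subgroup.mem_subgroupOf.mpr hcT⟩, ?_⟩
      change (⟨c, hTS hcT.1⟩ : N) • l = τ • l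
      rw [show (⟨c, hTS hcT.1⟩ : N) = τ * y from Subtype.ext (by
        change c = (τ : G) * y
        rw [show ((y : N) : G) = (τ : G)⁻¹ * c from hyc, mul_inv_cancel_left]), mul_smul,
        show y • l = l from hy.2]
    have hallQ : ∀ μ ∈ MulAction.orbit T' l, ∀ g : N, (g : G) ∈ Q → g • μ = μ := by
      by_contra hcon
      simp only [not_forall] at hcon
      obtain ⟨μ, hμ, g, hg, hne⟩ := hcon
      rcases htypes μ (horbX l hl μ hμ) with hQ' | ⟨P, hP, hPc, hPfix⟩
      · exact hne (hQ' g hg)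
      let O : Set (S →* Mu s) :=
        {ν | ν ∈ MulAction.orbit T' l ∧ ∀ g : N, (g : G) ∈ Q → g • ν = ν}
      have hO : O = MulAction.orbit CT l := by
        refine Set.Subset.antisymm (fun ν hν => hQfix ν hν.1 hν.2) ?_
        rintro _ ⟨⟨c, hc⟩, rfl⟩
        refine ⟨⟨⟨c, Subgroup.mem_subgroupOf.mpr (Subgroup.mem_subgroupOf.mp hc).1⟩, rfl⟩,
          fun g hg => ?_⟩
        change g • c • l = c • l
        rw [← mul_smul, show g * c = c * g from Subtype.ext
          (Subgroup.mem_centralizer_iff.mp (Subgroup.mem_subgroupOf.mp hc).2 g hg), mul_smul,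
          hlQ g hg]
      have hOdvd : Nat.card O ∣ Nat.card T := by
        rw [hO, Nat.card_congr (MulAction.orbitEquivQuotientStabilizer CT l)]
        refine (Subgroup.card_quotient_dvd_card _).trans ?_
        rw [← hT']
        exact Subgroup.card_dvd_of_le fun x hx =>
          Subgroup.mem_subgroupOf.mpr (Subgroup.mem_subgroupOf.mp hx).1
      obtain ⟨ν, ⟨hν, hνQ⟩, hνP⟩ := exists_fixed_of_prime (P := P.subgroupOf N) h.hp
        (by rw [Nat.card_congr (Subgroup.subgroupOfEquivOfLe (hP.trans hAS)).toEquiv, hPc]) O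
        (fun x hx o ho => by
          refine ⟨horbinv P hP l μ hμ hPfix x hx o ho.1, fun g hg => ?_⟩
          have hxg : x⁻¹ * g * x ∈ Q.subgroupOf N := Subgroup.mem_subgroupOf.mpr (by
            simpa using inv_conj_mem_of_le_normalizer h.le_normalizer (hP hx) hg)
          rw [← mul_smul, show g * x = x * (x⁻¹ * g * x) by group, mul_smul, ho.2 _ (Subgroup.mem_subgroupOf.mp hxg)])
        (fun hd => hpT (hd.trans hOdvd))
      refine (horbX l hl ν hν).1 (hAfix ν fun g hg => hsup P Q ν (hP.trans hAS) hQN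
        (fun g hg => hνP g hg) hνQ g ?_)
      rwa [h.sup_Q hP hPc]
    -- so `T` fixes the character
    refine hl.1 (hone l ?_)
    conv_lhs => rw [← hST]
    refine hkill T hTS l fun g hg => ?_
    have hQT : Q ≤ Subgroup.normalizer (T : Set G) := h.le.trans hAT
    have hQTc : (Nat.card Q).Coprime (Nat.card T) :=
      hATcop.coprime_dvd_left (Subgroup.card_dvd_of_le h.le)
    haveI := Fact.mk h.hq
    have hQsol : Group.IsSolvable Q := by
      haveI := isCyclic_of_prime_card h.card_Q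
      exact Group.isSolvable_of_comm fun a b => mul_comm' a b
    rw [← commutator_sup_centralizer hQT hQTc (Or.inl hQsol)] at hg
    have hCTN : T ⊓ Subgroup.centralizer (Q : Set G) ≤ N := inf_le_left.trans hTS
    have hTQN : ⁅T, Q⁆ ≤ N := (commutator_le_of_le_normalizer hQT).trans hTS
    refine hsup _ _ l hTQN hCTN ?_ ?_ g hg
    · -- commutators
      intro g hg
      have hle : ⁅T, Q⁆ ≤ (MulAction.stabilizer N l).map N.subtype := by
        rw [Subgroup.commutator_le]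
        intro τ hτ u hu
        refine ⟨⁅(⟨τ, hTS hτ⟩ : N), ⟨u, hQN hu⟩⁆, ?_, by simp [commutatorElement_def]⟩
        rw [SetLike.mem_coe, MulAction.mem_stabilizer_iff, commutatorElement_def, mul_smul, mul_smul,
          mul_smul, show (⟨u, hQN hu⟩ : N)⁻¹ • l = l from inv_smul_eq_iff.mpr (hlQ ⟨u, hQN hu⟩ hu).symm,
          hallQ ((⟨τ, hTS hτ⟩ : N)⁻¹ • l) ⟨⟨⟨τ, hTS hτ⟩⁻¹, Subgroup.mem_subgroupOf.mpr (T.inv_mem hτ)⟩, rfl⟩
            ⟨u, hQN hu⟩ hu, smul_inv_smul]
      obtain ⟨g', hg', e⟩ := hle hg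
      obtain rfl : g' = g := Subtype.ext e
      exact hg'
    · -- the fixed part
      intro g hg
      have hQS : Q ≤ Subgroup.normalizer (S : Set G) := hQN
      have hQSc : (Nat.card Q).Coprime (Nat.card S) :=
        hAScop.coprime_dvd_left (Subgroup.card_dvd_of_le h.le)
      have hgl : ∀ u : N, (u : G) ∈ Q → u • (g • l) = g • l :=
        hallQ _ ⟨⟨g, Subgroup.mem_subgroupOf.mpr hg.1⟩, rfl⟩
      let E : Subgroup G := (MonoidHom.eqLocus (g • l) l).map S.subtype
      have hE : S ≤ E := by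
        conv_lhs => rw [← commutator_sup_centralizer hQS hQSc (Or.inl hQsol)]
        refine sup_le (fun x hx => ?_) (fun x hx => ⟨⟨x, hx.1⟩, ?_, rfl⟩)
        · obtain ⟨hxS, h1⟩ := mem_kerSub.mp (hkill Q hQS (g • l) hgl hx)
          obtain ⟨_, h2⟩ := mem_kerSub.mp (hkill Q hQS l hlQ hx)
          exact ⟨⟨x, hxS⟩, h1.trans h2.symm, rfl⟩
        · change (g • l) _ = l _
          rw [happ]
          refine congrArg l (Subtype.ext ?_)
          change ((g⁻¹ : N) : G) * x * ((g⁻¹ : N) : G)⁻¹ = x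
          have := commute_fixed h hAS hAT hTS hcopST hSA hTA hx.1 (T.inv_mem hg.1) hx.2
            (inv_mem hg.2)
          rw [Subgroup.coe_inv, ← this, mul_inv_cancel_right]
      refine MonoidHom.ext fun x => ?_
      obtain ⟨y, hy, e⟩ := hE x.2
      obtain rfl : y = x := Subtype.ext e
      exact hy
  -- a point of the set
  obtain ⟨K, hKS, hKs, hKW⟩ := exists_hyperplane hs hexp hSV hcopSV hCS hVne
  obtain ⟨l₀, hl₀⟩ : ∃ l, InX l := by
    haveI : (K.subgroupOf S).Normal := ⟨fun b hb g => by rwa [mul_comm' g b, mul_inv_cancel_right]⟩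
    have hcard : Nat.card (S ⧸ K.subgroupOf S) = s := hKs
    haveI := isCyclic_of_prime_card hcard
    let e : Mu s ≃* S ⧸ K.subgroupOf S :=
      (AddEquiv.toMultiplicative (ZMod.ringEquivCongr hcard.symm).toAddEquiv).trans
        (zmodCyclicMulEquiv inferInstance)
    let l : S →* Mu s := e.symm.toMonoidHom.comp (QuotientGroup.mk' (K.subgroupOf S))
    have hker : kerSub l = K := by
      have : l.ker = K.subgroupOf S := by
        ext x
        simp [l, QuotientGroup.eq_one_iff]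
      rw [kerSub, this, Subgroup.map_subgroupOf_eq_of_le hKS]
    refine ⟨l, fun e' => ?_, by rw [hker]; exact hKW⟩
    have hKS' : S ≤ K := by
      rw [← hker, e']
      exact fun x hx => mem_kerSub.mpr ⟨hx, rfl⟩
    exact hs.ne_one (hKs.symm.trans (Subgroup.relIndex_eq_one.mpr hKS'))
  obtain ⟨P, hP, hPc, hPl⟩ := (htypes l₀ hl₀).resolve_left (noQ l₀ hl₀)
  have hPN : P ≤ N := hP.trans hAS
  have hallP : ∀ μ ∈ MulAction.orbit T' l₀, ∀ g : N, (g : G) ∈ P → g • μ = μ := by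
    intro μ hμ
    have hμX := horbX l₀ hl₀ μ hμ
    obtain ⟨P', hP', hP'c, hP'μ⟩ := (htypes μ hμX).resolve_left (noQ μ hμX)
    by_cases e : P' = P
    · rwa [e] at hP'μ
    exfalso
    let M : Subgroup N :=
      { carrier := {g | ∀ ν, ν ∈ MulAction.orbit T' l₀ ↔ g • ν ∈ MulAction.orbit T' l₀}
        one_mem' := fun ν => by rw [one_smul]
        mul_mem' := fun {a b} ha hb ν => by rw [mul_smul]; exact (hb ν).trans (ha _)
        inv_mem' := fun {a} ha ν => by
          have := ha (a⁻¹ • ν); rw [smul_inv_smul] at this; exact this.symm }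
    have hM : ∀ X : Subgroup G, X ≤ A → ∀ μ ∈ MulAction.orbit T' l₀,
        (∀ g : N, (g : G) ∈ X → g • μ = μ) → ∀ g : N, (g : G) ∈ X → g ∈ M := by
      intro X hX μ hμ hfix g hg ν
      refine ⟨horbinv X hX l₀ μ hμ hfix g hg ν, fun hν => ?_⟩
      have := horbinv X hX l₀ μ hμ hfix g⁻¹ (by simpa using X.inv_mem hg) _ hν
      rwa [inv_smul_smul] at this
    have hAM : A ≤ M.map N.subtype := by
      rw [← h.sup_P hP hPc hP' hP'c (fun e' => e e'.symm)]
      exact sup_le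
        (fun x hx => ⟨⟨x, hPN hx⟩, hM P hP l₀ (MulAction.mem_orbit_self _) hPl ⟨x, hPN hx⟩ hx, rfl⟩)
        (fun x hx => ⟨⟨x, (hP'.trans hAS) hx⟩,
          hM P' hP' μ hμ hP'μ ⟨x, (hP'.trans hAS) hx⟩ hx, rfl⟩)
    obtain ⟨ν, hν, hνQ⟩ := exists_fixed_of_prime (P := Q.subgroupOf N) h.hq
      (by rw [Nat.card_congr (Subgroup.subgroupOfEquivOfLe (h.le.trans hAS)).toEquiv, h.card_Q])
      (MulAction.orbit T' l₀)
      (fun x hx o ho => by
        obtain ⟨m, hm, em⟩ := hAM (h.le hx)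
        obtain rfl : m = x := Subtype.ext em
        exact (hm o).mp ho)
      (fun hd => hqT (hd.trans (horbdvd l₀)))
    exact noQ ν (horbX l₀ hl₀ ν hν) hνQ
  -- the common kernel of the orbit
  let R : Subgroup G :=
    { carrier := {x | ∃ hx : x ∈ S, ∀ μ ∈ MulAction.orbit T' l₀, μ ⟨x, hx⟩ = 1}
      one_mem' := ⟨S.one_mem, fun μ _ => map_one μ⟩
      mul_mem' := fun {a b} ha hb => ⟨S.mul_mem ha.1 hb.1, fun μ hμ => by
        obtain ⟨h1, h1'⟩ := ha
        obtain ⟨h2, h2'⟩ := hb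
        rw [show (⟨a * b, _⟩ : S) = ⟨a, h1⟩ * ⟨b, h2⟩ from Subtype.ext rfl, map_mul, h1' μ hμ,
          h2' μ hμ, one_mul]⟩
      inv_mem' := fun {a} ha => ⟨S.inv_mem ha.1, fun μ hμ => by
        obtain ⟨h1, h1'⟩ := ha
        rw [show (⟨a⁻¹, _⟩ : S) = ⟨a, h1⟩⁻¹ from Subtype.ext rfl, map_inv, h1' μ hμ, inv_one]⟩ }
  have hRS : R ≤ S := fun x hx => hx.1
  have hSR : S ≤ Subgroup.normalizer (R : Set G) := by
    rw [Subgroup.le_normalizer_iff]
    intro x hx y hy
    rwa [show x * y = y * x from congrArg Subtype.val (mul_comm' (⟨x, hx⟩ : S) ⟨y, hRS hy⟩),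
      mul_inv_cancel_right]
  have hTR : T ≤ Subgroup.normalizer (R : Set G) := by
    rw [Subgroup.le_normalizer_iff]
    rintro τ hτ y ⟨hyS, hy⟩
    refine ⟨conj_mem_of_le_normalizer hTS hτ hyS, fun μ hμ => ?_⟩
    have h1 := hy _ ((MulAction.orbit_eq_iff.mpr hμ).le
      (⟨⟨⟨τ, hTS hτ⟩⁻¹, Subgroup.mem_subgroupOf.mpr (T.inv_mem hτ)⟩, rfl⟩ :
        (⟨τ, hTS hτ⟩ : N)⁻¹ • μ ∈ MulAction.orbit T' μ))
    rw [happ, inv_inv] at h1
    exact h1
  have hR : ⁅S, ⁅T, P⁆⁆ ≤ R := by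
    intro x hx
    have hTPN : ⁅T, P⁆ ≤ N := (commutator_le_of_le_normalizer (hP.trans hAT)).trans hTS
    refine ⟨?_, fun μ hμ => ?_⟩
    · have hle : ⁅S, ⁅T, P⁆⁆ ≤ S := commutator_le_of_le_normalizer hTPN
      exact hle hx
    obtain ⟨_, h1⟩ := mem_kerSub.mp (hkill ⁅T, P⁆ hTPN μ (fun g hg => by
      have hle : ⁅T, P⁆ ≤ (MulAction.stabilizer N μ).map N.subtype := by
        rw [Subgroup.commutator_le]
        intro τ hτ u hu
        refine ⟨⁅(⟨τ, hTS hτ⟩ : N), ⟨u, hPN hu⟩⁆, ?_, by simp [commutatorElement_def]⟩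
        rw [SetLike.mem_coe, MulAction.mem_stabilizer_iff, commutatorElement_def, mul_smul, mul_smul,
          mul_smul, show (⟨u, hPN hu⟩ : N)⁻¹ • μ = μ from
            inv_smul_eq_iff.mpr (hallP μ hμ ⟨u, hPN hu⟩ hu).symm,
          hallP _ ((MulAction.orbit_eq_iff.mpr hμ).le
            (⟨⟨⟨τ, hTS hτ⟩⁻¹, Subgroup.mem_subgroupOf.mpr (T.inv_mem hτ)⟩, rfl⟩ :
              (⟨τ, hTS hτ⟩ : N)⁻¹ • μ ∈ MulAction.orbit T' μ)) ⟨u, hPN hu⟩ hu, smul_inv_smul]
      obtain ⟨g', hg', e⟩ := hle hg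
      obtain rfl : g' = g := Subtype.ext e
      exact hg') hx)
    exact h1
  obtain ⟨D, hDS, hSD, hDu⟩ := le_sup_translates h hP hPc hAS hAT hTS hST hATcop hTA hRS hSR hTR hR
  have hPR : ∀ z ∈ S, ∀ x ∈ P, z⁻¹ * (x * z * x⁻¹) ∈ R := by
    intro z hz x hx
    refine ⟨S.mul_mem (S.inv_mem hz) (conj_mem_of_le_normalizer hAS (hP hx) hz), fun μ hμ => ?_⟩
    have e := DFunLike.congr_fun (hallP μ hμ ⟨x⁻¹, inv_mem (hPN hx)⟩ (P.inv_mem hx)) ⟨z, hz⟩
    rw [happ] at e
    rw [show (⟨z⁻¹ * (x * z * x⁻¹), _⟩ : S) = ⟨z, hz⟩⁻¹ *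
      S.normalizerMonoidHom (⟨x⁻¹, inv_mem (hPN hx)⟩ : N)⁻¹ ⟨z, hz⟩ from Subtype.ext (by
        change z⁻¹ * (x * z * x⁻¹) = z⁻¹ * ((x⁻¹)⁻¹ * z * (x⁻¹)⁻¹⁻¹)
        rw [inv_inv]), map_mul, e, map_inv, inv_mul_cancel]
  have hDR : D ≤ R := le_of_translates h hP hPc hAS hSA hRS hPR hpS hDS hDu
  have hSR' : S ≤ R := hSD.trans (sup_le le_rfl hDR)
  refine hl₀.1 (MonoidHom.ext fun x => ?_)
  obtain ⟨_, hx⟩ := hSR' x.2
  exact hx l₀ (MulAction.mem_orbit_self _)

end Cfsg.Agent.H90.PQ
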