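import Cfsg.Agent.H90.PQ.Setup
import Cfsg.Agent.H90.FpfS3Outer
import Cfsg.Agent.H20.HallHigmanModule
import Cfsg.Agent.H53.FrobeniusAction
import Cfsg.Agent.H83.Minimal

/-! The Fermat configuration `s = 2`, `p = 2 ^ n + 1`. -/

set_option autoImplicit false
open scoped Pointwise commutatorElement IsMulCommutative

namespace Cfsg.Agent.H90.PQ

open Cfsg.Agent.H20

variable {G : Type*} [Group G] [Finite G]

/-- `p - 1` squared is less than `4 ^ (p - 1)`. -/
theorem sq_lt_four_pow {p c : ℕ} (hp : 2 ≤ p) (hc : 4 ≤ c) : (p - 1) ^ 2 < c ^ (p - 1) := by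
  refine lt_of_lt_of_le ?_ (Nat.pow_le_pow_left hc (p - 1))
  have h : p - 1 < 2 ^ (p - 1) := Nat.lt_two_pow_self
  calc (p - 1) ^ 2 < (2 ^ (p - 1)) ^ 2 := Nat.pow_lt_pow_left h (by norm_num)
    _ = 4 ^ (p - 1) := by rw [← pow_mul, mul_comm, pow_mul]; norm_num

/-- In the exceptional configuration `[S, [T, P]]` lies in the radical. -/
theorem commutator_le_radical {V S T P Z K R : Subgroup G} {p r t : ℕ} (hp : p.Prime) (hp2 : p ≠ 2)
    (hr : r.Prime) (hr2 : r ≠ 2) (hrp : r ≠ p)
    (hV : Cfsg.IsElementaryAbelian r V) (hS : IsPGroup 2 S) (hT : IsPGroup t T) (htp : t ≠ p)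
    (ht : t.Prime) (ht2 : t ≠ 2) (hPc : Nat.card P = p)
    (hPV : P ≤ Subgroup.normalizer (V : Set G)) (hSV : S ≤ Subgroup.normalizer (V : Set G))
    (hPS : P ≤ Subgroup.normalizer (S : Set G)) (hPT : P ≤ Subgroup.normalizer (T : Set G))
    (hTS : T ≤ Subgroup.normalizer (S : Set G))
    (hCP : V ⊓ Subgroup.centralizer (P : Set G) = ⊥)
    (hZS : Z ≤ S) (hZc : Z ≤ Subgroup.centralizer (S : Set G))
    (hTZ : T ≤ Subgroup.centralizer (Z : Set G)) (hcomm : ⁅S, S⁆ ≤ Z)
    (hZexp : ∀ z ∈ Z, z ^ 2 = 1) (hTT : ⁅T, T⁆ ≤ Subgroup.centralizer (S : Set G))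
    (hK : K = Z ⊓ Subgroup.centralizer (V : Set G)) (hKs : K.relIndex Z = 2)
    (hPZ : P ≤ Subgroup.normalizer (Z : Set G))
    (hR : ∀ x, x ∈ R ↔ x ∈ S ∧ ∀ y ∈ S, ⁅x, y⁆ ∈ Subgroup.centralizer (V : Set G)) :
    ⁅S, ⁅T, P⁆⁆ ≤ R := by
  classical
  haveI := Fact.mk hp
  haveI := Fact.mk ht
  haveI := Fact.mk hr
  haveI : Fact (Nat.Prime 2) := ⟨Nat.prime_two⟩
  haveI := hV.1
  have hRS : R ≤ S := fun x hx => ((hR x).mp hx).1
  have hcen : ∀ a b x : G, a ∈ S → b ∈ S → x ∈ S → x * ⁅a, b⁆ * x⁻¹ = ⁅a, b⁆ :=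
    fun a b x ha hb hx => by
    rw [Subgroup.mem_centralizer_iff.mp (hZc (hcomm (Subgroup.commutator_mem_commutator ha hb))) x hx,
      mul_inv_cancel_right]
  have hmull : ∀ a b y : G, a ∈ S → b ∈ S → y ∈ S → ⁅a * b, y⁆ = ⁅b, y⁆ * ⁅a, y⁆ := fun a b y ha hb hy => by
    rw [show ⁅a * b, y⁆ = a * ⁅b, y⁆ * a⁻¹ * ⁅a, y⁆ by simp only [commutatorElement_def]; group,
      hcen b y a hb hy ha]
  have hmulr : ∀ a b y : G, a ∈ S → b ∈ S → y ∈ S → ⁅y, a * b⁆ = ⁅y, a⁆ * ⁅y, b⁆ := fun a b y ha hb hy => by
    rw [show ⁅y, a * b⁆ = ⁅y, a⁆ * (a * ⁅y, b⁆ * a⁻¹) by simp only [commutatorElement_def]; group,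
      hcen y b a hy hb ha]
  have hZR : Z ≤ R := fun z hz => (hR z).mpr ⟨hZS hz, fun y hy => by
    rw [commutatorElement_eq_one_iff_mul_comm.mpr (Subgroup.mem_centralizer_iff.mp (hZc hz) y hy).symm]
    exact one_mem _⟩
  have hcomR : ⁅S, S⁆ ≤ R := hcomm.trans hZR
  have hSR : S ≤ Subgroup.normalizer (R : Set G) := H83.le_normalizer_of_commutator_le hRS hcomR
  have hconjR : ∀ g : G, g ∈ Subgroup.normalizer (S : Set G) →
      (∀ z ∈ Z, z ∈ Subgroup.centralizer (V : Set G) →
        g * z * g⁻¹ ∈ Subgroup.centralizer (V : Set G)) → ∀ x ∈ R, g * x * g⁻¹ ∈ R := by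
    intro g hg hgC x hx
    obtain ⟨hxS, hxy⟩ := (hR x).mp hx
    refine (hR _).mpr ⟨(Subgroup.mem_normalizer_iff.mp hg x).mp hxS, fun y hy => ?_⟩
    have hy' : g⁻¹ * y * g ∈ S := (Subgroup.mem_normalizer_iff''.mp hg y).mp hy
    have := hgC _ (hcomm (Subgroup.commutator_mem_commutator hxS hy')) (hxy _ hy')
    rwa [show g * ⁅x, g⁻¹ * y * g⁆ * g⁻¹ = ⁅g * x * g⁻¹, y⁆ by
      simp only [commutatorElement_def]; group] at this
  have hTR : T ≤ Subgroup.normalizer (R : Set G) := Subgroup.le_normalizer_iff.mpr fun g hg =>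
    hconjR g (hTS hg) fun z hz hzC => by
      rwa [← Subgroup.mem_centralizer_iff.mp (hTZ hg) z hz, mul_inv_cancel_right]
  have hPCV : P ≤ Subgroup.normalizer (Subgroup.centralizer (V : Set G) : Set G) :=
    le_normalizer_centralizer hPV
  have hPR : P ≤ Subgroup.normalizer (R : Set G) := Subgroup.le_normalizer_iff.mpr fun g hg =>
    hconjR g (hPS hg) fun z _ hzC => conj_mem_of_le_normalizer hPCV hg hzC
  -- elements with trivial square modulo `R`
  have hsq : ∀ x ∈ S, x ^ 2 ∈ R := fun x hx => (hR _).mpr ⟨pow_mem hx 2, fun y hy => by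
    rw [pow_two, hmull x x y hx hx hy, ← pow_two,
      hZexp _ (hcomm (Subgroup.commutator_mem_commutator hx hy))]
    exact one_mem _⟩
  -- the pairing takes at most two values modulo the kernel
  have hKle : K ≤ Subgroup.centralizer (V : Set G) := hK.le.trans inf_le_right
  have htwo : ∀ a ∈ Z, ∀ b ∈ Z, a ∉ K → b ∉ K → a * b ∈ K := fun a ha b hb haK hbK => by
    have hidx : (K.subgroupOf Z).index = 2 := hKs
    have := (Subgroup.mul_mem_iff_of_index_two hidx (a := ⟨a, ha⟩) (b := ⟨b, hb⟩)).mpr
      (iff_of_false (fun h => haK (Subgroup.mem_subgroupOf.mp h))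
        (fun h => hbK (Subgroup.mem_subgroupOf.mp h)))
    exact Subgroup.mem_subgroupOf.mp this
  set K1 := ⁅T, P⁆ with hK1
  have hK1T : K1 ≤ T := commutator_le_of_le_normalizer hPT
  have hK1S : K1 ≤ Subgroup.normalizer (S : Set G) := hK1T.trans hTS
  have hcardT : (Nat.card T).Coprime (Nat.card S) := by
    obtain ⟨m, hm⟩ := IsPGroup.iff_card.mp hT
    obtain ⟨m', hm'⟩ := IsPGroup.iff_card.mp hS
    rw [hm, hm']
    exact ((Nat.coprime_primes ht Nat.prime_two).mpr ht2).pow m m'
  have hK1c : (Nat.card K1).Coprime (Nat.card S) :=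
    hcardT.coprime_dvd_left (Subgroup.card_dvd_of_le hK1T)
  have hsolvS : Group.IsSolvable S := isSolvable_of_isPGroup hS
  set E0 := ⁅S, K1⁆ ⊔ R with hE0
  have hE0S : E0 ≤ S := sup_le (commutator_le_of_le_normalizer hK1S) hRS
  -- orthogonality
  have horth : ∀ x ∈ E0, ∀ d ∈ S, d ∈ Subgroup.centralizer (K1 : Set G) →
      ⁅x, d⁆ ∈ Subgroup.centralizer (V : Set G) := by
    intro x hx d hd hdC
    let M : Subgroup G :=
      { carrier := {x | x ∈ S ∧ ⁅x, d⁆ ∈ Subgroup.centralizer (V : Set G)}
        one_mem' := ⟨one_mem S, by simp [one_mem]⟩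
        mul_mem' := fun {a b} ha hb => ⟨mul_mem ha.1 hb.1, by
          rw [hmull a b d ha.1 hb.1 hd]; exact mul_mem hb.2 ha.2⟩
        inv_mem' := fun {a} ha => ⟨inv_mem ha.1, by
          have h := hmull a⁻¹ a d (inv_mem ha.1) ha.1 hd
          rw [inv_mul_cancel, commutatorElement_one_left, eq_comm, mul_eq_one_iff_inv_eq] at h
          rw [← h]
          exact inv_mem ha.2⟩ }
    have hle : E0 ≤ M := by
      refine sup_le ?_ (fun y hy => ⟨hRS hy, ((hR y).mp hy).2 d hd⟩)
      rw [Subgroup.commutator_le]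
      intro u hu k hk
      have hku : k * u⁻¹ * k⁻¹ ∈ S := conj_mem_of_le_normalizer hK1S hk (inv_mem hu)
      refine ⟨commutator_le_of_le_normalizer hK1S (Subgroup.commutator_mem_commutator hu hk), ?_⟩
      rw [show ⁅u, k⁆ = u * (k * u⁻¹ * k⁻¹) by simp only [commutatorElement_def]; group,
        hmull _ _ d hu hku hd]
      have hdk : k⁻¹ * d * k = d := by
        rw [mul_assoc, ← Subgroup.mem_centralizer_iff.mp hdC k hk, inv_mul_cancel_left]
      rw [show ⁅k * u⁻¹ * k⁻¹, d⁆ = k * ⁅u⁻¹, k⁻¹ * d * k⁆ * k⁻¹ by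
        simp only [commutatorElement_def]; group, hdk]
      have hz := hcomm (Subgroup.commutator_mem_commutator (inv_mem hu) hd)
      rw [← Subgroup.mem_centralizer_iff.mp (hTZ (hK1T hk)) _ hz, mul_inv_cancel_right,
        ← hmull u u⁻¹ d hu (inv_mem hu) hd, mul_inv_cancel, commutatorElement_one_left]
      exact one_mem _
    exact (hle hx).2
  have hdecomp : S ≤ E0 ⊔ (S ⊓ Subgroup.centralizer (K1 : Set G)) := by
    conv_lhs => rw [← commutator_sup_centralizer hK1S hK1c (Or.inr hsolvS)]
    exact sup_le (le_sup_left.trans le_sup_left) le_sup_right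
  -- nondegeneracy on `E0`
  have hnd : ∀ x ∈ E0, (∀ y ∈ E0, ⁅x, y⁆ ∈ Subgroup.centralizer (V : Set G)) → x ∈ R := by
    intro x hx hxy
    refine (hR x).mpr ⟨hE0S hx, fun y hy => ?_⟩
    let M : Subgroup G :=
      { carrier := {y | y ∈ S ∧ ⁅x, y⁆ ∈ Subgroup.centralizer (V : Set G)}
        one_mem' := ⟨one_mem S, by simp [one_mem]⟩
        mul_mem' := fun {a b} ha hb => ⟨mul_mem ha.1 hb.1, by
          rw [hmulr a b x ha.1 hb.1 (hE0S hx)]; exact mul_mem ha.2 hb.2⟩
        inv_mem' := fun {a} ha => ⟨inv_mem ha.1, by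
          have h := hmulr a⁻¹ a x (inv_mem ha.1) ha.1 (hE0S hx)
          rw [inv_mul_cancel, commutatorElement_one_right, eq_comm, mul_eq_one_iff_eq_inv] at h
          rw [h]
          exact inv_mem ha.2⟩ }
    have hle : S ≤ M := hdecomp.trans (sup_le (fun z hz => ⟨hE0S hz, hxy z hz⟩)
      (fun z hz => ⟨hz.1, horth x hx z hz.1 hz.2⟩))
    exact (hle hy).2
  -- the quotient
  have hRE0 : R ≤ E0 := le_sup_right
  have hE0R : E0 ≤ Subgroup.normalizer (R : Set G) := hE0S.trans hSR
  haveI hRn : (R.subgroupOf E0).Normal := Subgroup.normal_subgroupOf_of_le_normalizer hE0R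
  set N0 := K1 ⊔ P with hN0
  have hN0S : N0 ≤ Subgroup.normalizer (S : Set G) := sup_le hK1S hPS
  have hN0R : N0 ≤ Subgroup.normalizer (R : Set G) := sup_le (hK1T.trans hTR) hPR
  have hPK1 : P ≤ Subgroup.normalizer (K1 : Set G) :=
    H83.le_normalizer_commutator hPT Subgroup.le_normalizer
  have hN0E : N0 ≤ Subgroup.normalizer (E0 : Set G) :=
    H83.le_normalizer_sup (H83.le_normalizer_commutator hN0S (sup_le Subgroup.le_normalizer hPK1)) hN0R
  let Mq := E0 ⧸ R.subgroupOf E0
  letI : CommGroup Mq :=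
    { (inferInstance : Group Mq) with
      mul_comm := fun a b => by
        induction a using QuotientGroup.induction_on with
        | H a => induction b using QuotientGroup.induction_on with
          | H b =>
            rw [← QuotientGroup.mk_mul, ← QuotientGroup.mk_mul, QuotientGroup.eq,
              Subgroup.mem_subgroupOf]
            have := hcomR (Subgroup.commutator_mem_commutator (S.inv_mem (hE0S b.2))
              (S.inv_mem (hE0S a.2)))
            simpa [commutatorElement_def, mul_assoc] using this }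
  have hinvR : ∀ g : N0, ∀ x ∈ R.subgroupOf E0, conjAut hN0E g x ∈ R.subgroupOf E0 := fun g x hx =>
    Subgroup.mem_subgroupOf.mpr (conj_mem_of_le_normalizer hN0R g.2 (Subgroup.mem_subgroupOf.mp hx))
  let φ : N0 →* MulAut Mq := quotAction (conjAut hN0E) (R.subgroupOf E0) hinvR
  have hφ : ∀ (g : N0) (x : E0), φ g (QuotientGroup.mk x) = QuotientGroup.mk (conjAut hN0E g x) :=
    fun g x => quotAction_mk _ _ _ g x
  let KF : Subgroup φ.range := (K1.subgroupOf N0).map φ.rangeRestrict
  let PF : Subgroup φ.range := (P.subgroupOf N0).map φ.rangeRestrict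
  haveI : (K1.subgroupOf N0).Normal := Subgroup.normal_subgroupOf_of_le_normalizer
    (sup_le Subgroup.le_normalizer hPK1)
  haveI : KF.Normal := Subgroup.Normal.map inferInstance _ (MonoidHom.rangeRestrict_surjective _)
  -- commutators of `T` act trivially
  have hTTtriv : ∀ g : N0, (g : G) ∈ ⁅T, T⁆ → φ g = 1 := fun g hg => MulEquiv.ext fun x => by
    induction x using QuotientGroup.induction_on with
    | H x =>
      rw [hφ, MulAut.one_apply]
      refine congrArg _ (Subtype.ext ?_)
      rw [coe_conjAut, ← Subgroup.mem_centralizer_iff.mp (hTT hg) x (hE0S x.2), mul_inv_cancel_right]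
  haveI : Group.IsSolvable KF := Group.isSolvable_of_comm fun a b => by
    obtain ⟨_, a', ha', rfl⟩ := a
    obtain ⟨_, b', hb', rfl⟩ := b
    refine Subtype.ext ?_
    change φ.rangeRestrict a' * φ.rangeRestrict b' = φ.rangeRestrict b' * φ.rangeRestrict a'
    refine Subtype.ext ?_
    change φ a' * φ b' = φ b' * φ a'
    rw [← commutatorElement_eq_one_iff_mul_comm, ← map_commutatorElement]
    refine hTTtriv _ ?_
    have h := Subgroup.commutator_mem_commutator (hK1T (Subgroup.mem_subgroupOf.mp ha'))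
      (hK1T (Subgroup.mem_subgroupOf.mp hb'))
    simpa [commutatorElement_def] using h
  -- fixed-point-freeness
  have hfree : ∀ k : N0, (k : G) ∈ K1 →
      (∀ x : N0, (x : G) ∈ P → φ x * φ k = φ k * φ x) → φ k = 1 := by
    intro k hk hcomm'
    let N1 : Subgroup G := (φ.ker ⊓ K1.subgroupOf N0).map N0.subtype
    have hN1K : N1 ≤ K1 := by rintro _ ⟨y, hy, rfl⟩; exact hy.2
    have hPN1 : P ≤ Subgroup.normalizer (N1 : Set G) := by
      rw [Subgroup.le_normalizer_iff]
      rintro x hx _ ⟨y, hy, rfl⟩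
      refine ⟨⟨x, le_sup_right (a := K1) hx⟩ * y * ⟨x, le_sup_right (a := K1) hx⟩⁻¹, ⟨?_, ?_⟩, by simp⟩
      · exact (inferInstance : φ.ker.Normal).conj_mem y hy.1 _
      · exact Subgroup.mem_subgroupOf.mpr (by
          simpa using conj_mem_of_le_normalizer hPK1 hx (Subgroup.mem_subgroupOf.mp hy.2))
    have hPcop : (Nat.card P).Coprime (Nat.card T) := by
      obtain ⟨m, hm⟩ := IsPGroup.iff_card.mp hT
      rw [hPc, hm]
      exact ((Nat.coprime_primes hp ht).mpr (Ne.symm htp)).pow_right m
    have hK1P : ⁅K1, P⁆ = K1 := commutator_commutator_eq hPT hPcop (Or.inr (isSolvable_of_isPGroup hT))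
    haveI : IsCyclic P := isCyclic_of_prime_card hPc
    obtain ⟨n, hn, hc⟩ := exists_mul_mem_centralizer (A := P) (N := N1) (k := (k : G)) hPN1
      (hPcop.coprime_dvd_right (Subgroup.card_dvd_of_le (hN1K.trans hK1T)))
      (Or.inl (Group.isSolvable_of_comm fun a b => mul_comm' a b))
      fun x hx => by
        have hx' : x ∈ N0 := le_sup_right (a := K1) hx
        refine ⟨k⁻¹ * (⟨x, hx'⟩ * k * ⟨x, hx'⟩⁻¹), ⟨?_, ?_⟩, by simp⟩
        · change φ (k⁻¹ * (⟨x, hx'⟩ * k * ⟨x, hx'⟩⁻¹)) = 1
          rw [map_mul, map_mul, map_mul, map_inv, map_inv, hcomm' ⟨x, hx'⟩ hx, mul_inv_cancel_right,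
            inv_mul_cancel]
        · exact Subgroup.mem_subgroupOf.mpr (by
            simpa using K1.mul_mem (K1.inv_mem hk) (conj_mem_of_le_normalizer hPK1 hx hk))
    have hU : Subgroup.zpowers ((k : G) * n) ≤ N1 := by
      refine H83.le_of_centralized_mod hPK1 (hPcop.coprime_dvd_right (Subgroup.card_dvd_of_le hK1T))
        hK1P ?_ hPN1 ?_ (Subgroup.zpowers_le.mpr (K1.mul_mem hk (hN1K hn))) ?_
      · rw [Subgroup.le_normalizer_iff]
        rintro x hx _ ⟨y, hy, rfl⟩
        refine ⟨⟨x, le_sup_left (b := P) hx⟩ * y * ⟨x, le_sup_left (b := P) hx⟩⁻¹, ⟨?_, ?_⟩, by simp⟩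
        · exact (inferInstance : φ.ker.Normal).conj_mem y hy.1 _
        · exact Subgroup.mem_subgroupOf.mpr
            (K1.mul_mem (K1.mul_mem hx (Subgroup.mem_subgroupOf.mp hy.2)) (K1.inv_mem hx))
      · rw [Subgroup.commutator_le]
        intro a ha b hb
        refine ⟨⁅(⟨a, le_sup_left (b := P) ha⟩ : N0), ⟨b, le_sup_left (b := P) hb⟩⁆, ⟨?_, ?_⟩,
          by simp [commutatorElement_def]⟩
        · exact hTTtriv _ (by
            simpa [commutatorElement_def] using
              Subgroup.commutator_mem_commutator (hK1T ha) (hK1T hb))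
        · refine Subgroup.mem_subgroupOf.mpr ?_
          simp only [commutatorElement_def, Subgroup.coe_mul, Subgroup.coe_inv]
          exact K1.mul_mem (K1.mul_mem (K1.mul_mem ha hb) (K1.inv_mem ha)) (K1.inv_mem hb)
      · exact le_of_eq_of_le (Subgroup.commutator_eq_bot_iff_le_centralizer.mpr
          (Subgroup.zpowers_le.mpr hc)) bot_le
    obtain ⟨y, hy, e⟩ := hU (Subgroup.mem_zpowers _)
    obtain ⟨y', hy', e'⟩ := hn
    have : k = y * y'⁻¹ := Subtype.ext (by
      change (k : G) = (y : G) * (y' : G)⁻¹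
      rw [show (y : G) = (k : G) * n from e, show (y' : G) = n from e', mul_inv_cancel_right])
    rw [this, map_mul, map_inv, show φ y = 1 from hy.1, show φ y' = 1 from hy'.1, inv_one, mul_one]
  have hfpf : ∀ a ∈ PF, a ≠ 1 → ∀ x ∈ KF, a * x = x * a → x = 1 := by
    rintro _ ⟨a, ha, rfl⟩ ha1 _ ⟨k, hk, rfl⟩ hcomm'
    refine Subtype.ext (hfree k hk fun x hx => ?_)
    have haP : (⟨(a : G), ha⟩ : P) ≠ 1 := fun e => ha1 (by
      rw [show a = 1 from Subtype.ext (congrArg Subtype.val e :), map_one])
    obtain ⟨i, hi⟩ := Subgroup.mem_zpowers_iff.mp (mem_zpowers_of_prime_card hPc haP :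
      (⟨(x : G), hx⟩ : P) ∈ Subgroup.zpowers _)
    have hxa : x = a ^ i := Subtype.ext (by
      simpa using (congrArg Subtype.val hi).symm)
    rw [hxa, map_zpow]
    exact ((show Commute (φ a) (φ k) from congrArg Subtype.val hcomm').zpow_left i).eq
  have hFodd : ¬ 2 ∣ Nat.card φ.range := fun hd => by
    have h1 := hd.trans (Subgroup.card_range_dvd φ)
    have hPK1c : (Nat.card P).Coprime (Nat.card K1) := by
      obtain ⟨m, hm⟩ := IsPGroup.iff_card.mp (hT.to_le hK1T)
      rw [hPc, hm]
      exact ((Nat.coprime_primes hp ht).mpr (Ne.symm htp)).pow_right m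
    rw [hN0, card_sup_of_coprime hPK1 hPK1c, hPc] at h1
    obtain ⟨m, hm⟩ := IsPGroup.iff_card.mp (hT.to_le hK1T)
    rw [hm] at h1
    rcases Nat.prime_two.dvd_mul.mp h1 with e | e
    · exact ht2 ((Nat.prime_dvd_prime_iff_eq Nat.prime_two ht).mp (Nat.prime_two.dvd_of_dvd_pow e)).symm
    · exact hp2 ((Nat.prime_dvd_prime_iff_eq Nat.prime_two hp).mp e).symm
  have hMexp : ∀ m : Mq, m ^ 2 = 1 := fun m => by
    induction m using QuotientGroup.induction_on with
    | H x =>
      rw [← QuotientGroup.mk_pow, QuotientGroup.eq_one_iff, Subgroup.mem_subgroupOf]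
      exact hsq x (hE0S x.2)
  have hfixK : H53.fixedSubgroup φ.range.subtype KF = ⊥ := by
    rw [eq_bot_iff]
    intro m hm
    induction m using QuotientGroup.induction_on with
    | H x =>
      rw [Subgroup.mem_bot, QuotientGroup.eq_one_iff, Subgroup.mem_subgroupOf]
      obtain ⟨c, hc1, hc2⟩ := H20.exists_fixed_mem_coset (A := K1) (K := E0) (N := R)
        (hK1c.coprime_dvd_right (Subgroup.card_dvd_of_le hE0S))
        (Or.inr (isSolvable_of_le hE0S hsolvS)) hRE0 (hK1T.trans hTR) x.2 fun k hk => by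
          have h := hm _ ⟨⟨k, le_sup_left (b := P) hk⟩, hk, rfl⟩
          change φ _ _ = _ at h
          rw [hφ, eq_comm, QuotientGroup.eq, Subgroup.mem_subgroupOf] at h
          exact h
      have hcR : c ∈ R := hnd c hc1.1 fun y hy => by
        have h := horth y hy c (hE0S hc1.1) hc1.2
        rw [← commutatorElement_inv]
        exact inv_mem h
      have := R.mul_mem hcR (R.inv_mem hc2)
      rwa [_root_.mul_inv_rev, inv_inv, mul_inv_cancel_left] at this
  obtain ⟨hcard, -⟩ := H53.elementary_card_eq_fixed_pow hMexp φ.range.subtype KF PF hfpf hFodd hfixK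
  set Fx := H53.fixedSubgroup φ.range.subtype PF
  -- the bound
  obtain ⟨⟨π, hπ⟩, hgen⟩ := (isCyclic_of_prime_card hPc).exists_generator
  set π0 : N0 := ⟨π, le_sup_right (a := K1) hπ⟩
  let D : Mq →* Mq :=
    { toFun := fun m => m⁻¹ * φ π0 m
      map_one' := by simp
      map_mul' := fun a b => by rw [map_mul, _root_.mul_inv_rev, mul_comm b⁻¹, mul_mul_mul_comm] }
  have hFx : D.ker ≤ Fx := by
    intro m hm
    rw [MonoidHom.mem_ker] at hm
    change m⁻¹ * φ π0 m = 1 at hm
    rw [inv_mul_eq_one] at hm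
    rintro _ ⟨x, hx, rfl⟩
    change φ x m = m
    obtain ⟨i, hi⟩ := Subgroup.mem_zpowers_iff.mp (hgen ⟨(x : G), hx⟩)
    have hxi : x = π0 ^ i := Subtype.ext (by simpa [π0] using (congrArg Subtype.val hi).symm)
    have hst : φ π0 ∈ MulAction.stabilizer (MulAut Mq) m := hm.symm
    rw [hxi, map_zpow]
    exact zpow_mem hst i
  have hKFR : Nat.card PF = p ∨ Nat.card PF = 1 := by
    have hd : Nat.card PF ∣ p := by
      rw [← hPc, ← Nat.card_congr (Subgroup.subgroupOfEquivOfLe (le_sup_right : P ≤ N0)).toEquiv]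
      exact Subgroup.card_map_dvd _ _
    exact ((Nat.dvd_prime hp).mp hd).symm
  rcases hKFR with hPF | hPF
  swap
  · -- `P` trivial on the quotient
    have hKF : KF = ⊥ := by
      rw [eq_bot_iff]
      rintro _ ⟨k, hk, rfl⟩
      refine Subgroup.mem_bot.mpr (Subtype.ext (hfree k hk fun x hx => ?_))
      have h1 : φ.rangeRestrict x = 1 :=
        Subgroup.mem_bot.mp ((Subgroup.card_eq_one.mp hPF).le ⟨x, hx, rfl⟩)
      rw [show φ x = 1 from congrArg Subtype.val h1, one_mul, mul_one]
    intro y hy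
    have h1 : (QuotientGroup.mk (⟨y, le_sup_left (b := R) hy⟩ : E0) : Mq) ∈
        H53.fixedSubgroup φ.range.subtype KF := fun g hg => by
      rw [hKF, Subgroup.mem_bot] at hg
      rw [hg]; rfl
    rw [hfixK, Subgroup.mem_bot, QuotientGroup.eq_one_iff, Subgroup.mem_subgroupOf] at h1
    exact h1
  rw [hPF] at hcard
  -- the image of the displacement
  set Q0 := ⁅S, P⁆ ⊔ R with hQ0
  have hQ0S : Q0 ≤ S := sup_le (commutator_le_of_le_normalizer hPS) hRS
  have hDimg : Nat.card D.range ≤ R.relIndex Q0 := by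
    haveI : (R.subgroupOf Q0).Normal :=
      Subgroup.normal_subgroupOf_of_le_normalizer (hQ0S.trans hSR)
    have hmem : ∀ m : Mq, ∃ x : E0, (x : G) ∈ Q0 ∧ D m = QuotientGroup.mk x := fun m => by
      induction m using QuotientGroup.induction_on with
      | H y =>
        refine ⟨y⁻¹ * conjAut hN0E π0 y, ?_, ?_⟩
        · refine le_sup_left (b := R) ?_
          have : ((y⁻¹ * conjAut hN0E π0 y : E0) : G) = ⁅((y : G)⁻¹), π⁆ := by
            rw [Subgroup.coe_mul, Subgroup.coe_inv, coe_conjAut, commutatorElement_def]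
            simp [π0, mul_assoc]
          rw [this]
          exact Subgroup.commutator_mem_commutator (S.inv_mem (hE0S y.2)) hπ
        · change (QuotientGroup.mk y)⁻¹ * φ π0 (QuotientGroup.mk y) = _
          rw [hφ, QuotientGroup.mk_mul, QuotientGroup.mk_inv]
    choose f hf1 hf2 using fun m : D.range => hmem m.2.choose
    have hinj : Function.Injective
        fun m : D.range => (QuotientGroup.mk ⟨(f m : G), hf1 m⟩ : Q0 ⧸ R.subgroupOf Q0) := by
      intro a b hab
      refine Subtype.ext ?_
      rw [← a.2.choose_spec, ← b.2.choose_spec, hf2, hf2, QuotientGroup.eq, Subgroup.mem_subgroupOf]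
      simp only at hab
      have h := Subgroup.mem_subgroupOf.mp (QuotientGroup.eq.mp hab)
      exact h
    exact Nat.card_le_card_of_injective _ hinj
  have hMc : Nat.card Mq ≤ Nat.card Fx * R.relIndex Q0 := by
    rw [Subgroup.card_eq_card_quotient_mul_card_subgroup D.ker, mul_comm]
    refine Nat.mul_le_mul (Nat.le_of_dvd Nat.card_pos (Subgroup.card_dvd_of_le hFx)) ?_
    rw [Nat.card_congr (QuotientGroup.quotientKerEquivRange D).toEquiv]
    exact hDimg
  by_contra hgoal
  have hMne : Nat.card Mq ≠ 1 := fun e => hgoal fun y hy => by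
    haveI := (Nat.card_eq_one_iff_unique.mp e).1
    exact Subgroup.mem_subgroupOf.mp ((QuotientGroup.eq_one_iff _).mp
      (Subsingleton.elim (QuotientGroup.mk (⟨y, le_sup_left (b := R) hy⟩ : E0) : Mq) 1))
  -- `C ≥ 4`
  have hFxpow : ∃ m, Nat.card Fx = 2 ^ m := by
    have h2 : IsPGroup 2 Mq := fun m => ⟨1, by simpa using hMexp m⟩
    exact IsPGroup.iff_card.mp (h2.to_subgroup Fx)
  obtain ⟨m, hm⟩ := hFxpow
  have hm2 : 4 ≤ Nat.card Fx := by
    rcases m with _ | _ | m
    · rw [hm] at hcard; simp at hcard; exact absurd hcard hMne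
    · exfalso
      have h2 : Nat.card Fx = 2 := by rw [hm]; norm_num
      obtain ⟨⟨c, hc⟩, hc1⟩ : ∃ c : Fx, c ≠ 1 := by
        haveI : Nontrivial Fx := Finite.one_lt_card_iff_nontrivial.mp (by omega)
        exact exists_ne 1
      have hc1' : c ≠ 1 := fun e => hc1 (Subtype.ext e)
      obtain ⟨x, rfl⟩ := QuotientGroup.mk_surjective c
      obtain ⟨y, hy, hxy⟩ : ∃ y ∈ E0, ⁅(x : G), y⁆ ∉ Subgroup.centralizer (V : Set G) := by
        by_contra hcon
        simp only [not_exists, not_and, not_not] at hcon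
        exact hc1' ((QuotientGroup.eq_one_iff _).mpr (Subgroup.mem_subgroupOf.mpr (hnd x x.2 hcon)))
      haveI : (K.subgroupOf Z).Normal := Subgroup.normal_of_index_eq_two hKs
      haveI : IsMulCommutative Z :=
        ⟨⟨fun a b => Subtype.ext (Subgroup.mem_centralizer_iff.mp (hZc a.2) _ (hZS b.2)).symm⟩⟩
      let val : E0 → Z := fun e => ⟨⁅(x : G), (e : G)⁆,
        hcomm (Subgroup.commutator_mem_commutator (hE0S x.2) (hE0S e.2))⟩
      let g0 : E0 →* Z ⧸ K.subgroupOf Z := MonoidHom.mk' (fun e => QuotientGroup.mk (val e))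
        fun a b => by
          rw [← QuotientGroup.mk_mul]
          exact congrArg _ (Subtype.ext (hmulr a b x (hE0S a.2) (hE0S b.2) (hE0S x.2)))
      have hg0 : R.subgroupOf E0 ≤ g0.ker := fun e he => by
        refine MonoidHom.mem_ker.mpr ((QuotientGroup.eq_one_iff _).mpr ?_)
        rw [Subgroup.mem_subgroupOf, hK]
        refine ⟨Subtype.prop _, ?_⟩
        have h := ((hR _).mp (Subgroup.mem_subgroupOf.mp he)).2 x (hE0S x.2)
        change ⁅(x : G), (e : G)⁆ ∈ _
        rw [← commutatorElement_inv]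
        exact Subgroup.inv_mem _ h
      let g : Mq →* Z ⧸ K.subgroupOf Z := QuotientGroup.lift _ g0 hg0
      have hgm : ∀ e : E0, g (QuotientGroup.mk e) = 1 ↔
          ⁅(x : G), (e : G)⁆ ∈ Subgroup.centralizer (V : Set G) := fun e => by
        change (QuotientGroup.mk (val e) : Z ⧸ K.subgroupOf Z) = 1 ↔ _
        rw [QuotientGroup.eq_one_iff, Subgroup.mem_subgroupOf, hK, Subgroup.mem_inf]
        exact ⟨fun h => h.2, fun h => ⟨(val e).2, h⟩⟩
      have hgP : ∀ z : Mq, g (φ π0 z) = g z := by
        intro z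
        induction z using QuotientGroup.induction_on with
        | H e =>
          have hone : g (QuotientGroup.mk (conjAut hN0E π0 e)) = 1 ↔ g (QuotientGroup.mk e) = 1 := by
            rw [hgm, hgm, coe_conjAut]
            have hxr : π⁻¹ * (x : G) * π * (x : G)⁻¹ ∈ R := by
              have h := hc _ ⟨π0⁻¹, Subgroup.mem_subgroupOf.mpr (by simpa [π0] using P.inv_mem hπ), rfl⟩
              change φ π0⁻¹ _ = _ at h
              rw [hφ, eq_comm, QuotientGroup.eq, Subgroup.mem_subgroupOf] at h
              have h' := (Subgroup.mem_normalizer_iff.mp (hE0R x.2) _).mp h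
              simp only [Subgroup.coe_mul, Subgroup.coe_inv, coe_conjAut, π0, inv_inv] at h'
              convert h' using 1
              group
            set x' := π⁻¹ * (x : G) * π
            have hx'S : x' ∈ S := inv_conj_mem_of_le_normalizer hPS hπ (hE0S x.2)
            have hCV : ∀ a, a ∈ R → ∀ b ∈ S, ⁅a, b⁆ ∈ Subgroup.centralizer (V : Set G) :=
              fun a ha => ((hR a).mp ha).2
            have heq : ⁅x', (e : G)⁆ ∈ Subgroup.centralizer (V : Set G) ↔
                ⁅(x : G), (e : G)⁆ ∈ Subgroup.centralizer (V : Set G) := by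
              have h := hmull _ _ (e : G) (hRS hxr) (hE0S x.2) (hE0S e.2)
              rw [inv_mul_cancel_right] at h
              rw [h]
              exact Subgroup.mul_mem_cancel_right _ (hCV _ hxr _ (hE0S e.2))
            rw [← heq, show ⁅(x : G), ((π0 : N0) : G) * e * ((π0 : N0) : G)⁻¹⁆ = π * ⁅x', (e : G)⁆ * π⁻¹ by
              simp only [x', π0, commutatorElement_def]; group]
            exact ((Subgroup.mem_normalizer_iff.mp (hPCV hπ)) _).symm
          rw [hφ]
          by_cases h1 : g (QuotientGroup.mk e) = 1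
          · rw [h1, hone.mpr h1]
          · have key : ∀ a b : Z ⧸ K.subgroupOf Z, a ≠ 1 → b ≠ 1 → a * b = 1 := by
              intro a b ha hb
              induction a using QuotientGroup.induction_on with
              | H a => induction b using QuotientGroup.induction_on with
                | H b =>
                  rw [Ne, QuotientGroup.eq_one_iff, Subgroup.mem_subgroupOf] at ha hb
                  rw [← QuotientGroup.mk_mul, QuotientGroup.eq_one_iff, Subgroup.mem_subgroupOf]
                  exact htwo _ a.2 _ b.2 ha hb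
            have e1 := key _ _ h1 h1
            have e2 := key (g (QuotientGroup.mk (conjAut hN0E π0 e))) _ (fun h => h1 (hone.mp h)) h1
            exact mul_right_cancel (e2.trans e1.symm)
      have hgi : ∀ (i : ℕ) (z : Mq), g (φ (π0 ^ i) z) = g z := by
        intro i
        induction i with
        | zero => simp
        | succ i ih => intro z; rw [pow_succ, map_mul, MulAut.mul_apply, ih, hgP]
      set y0 : Mq := QuotientGroup.mk ⟨y, hy⟩
      set Y := ∏ i ∈ Finset.range p, φ (π0 ^ i) y0 with hY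
      have hπp : π0 ^ p = 1 := Subtype.ext (by
        have := congrArg Subtype.val (pow_card_eq_one' (x := (⟨π, hπ⟩ : P)))
        rw [hPc] at this
        simpa [π0] using this)
      have hYfix : φ π0 Y = Y := by
        rw [hY, map_prod]
        have h1 := Finset.prod_range_succ' (fun i => φ (π0 ^ i) y0) p
        rw [Finset.prod_range_succ, hπp, pow_zero] at h1
        refine Eq.trans (Finset.prod_congr rfl fun i _ => ?_) (mul_right_cancel h1).symm
        rw [pow_succ', map_mul, MulAut.mul_apply]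
      have hYFx : Y ∈ Fx := hFx (MonoidHom.mem_ker.mpr (by
        change Y⁻¹ * φ π0 Y = 1
        rw [hYfix, inv_mul_cancel]))
      have hgY : g Y ≠ 1 := by
        rw [hY, map_prod, Finset.prod_congr rfl fun i _ => hgi i y0, Finset.prod_const,
          Finset.card_range]
        intro hp1
        refine hxy ((hgm ⟨y, hy⟩).mp ?_)
        have hg2 : g y0 ^ 2 = 1 := by rw [← map_pow, hMexp, map_one]
        have := pow_gcd_eq_one.mpr ⟨hg2, hp1⟩
        rwa [(Nat.coprime_primes Nat.prime_two hp).mpr (Ne.symm hp2), pow_one] at this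
      have htwoFx : ∀ z ∈ Fx, z ≠ 1 → z = QuotientGroup.mk x := by
        intro z hz hz1
        obtain ⟨u, v, -, huv⟩ := Nat.card_eq_two_iff.mp h2
        have hall : ∀ w : Fx, w = u ∨ w = v := fun w => by
          have := huv.ge (Set.mem_univ w); simpa using this
        rcases hall 1 with e1 | e1 <;> rcases hall ⟨z, hz⟩ with e2 | e2 <;>
          rcases hall ⟨_, hc⟩ with e3 | e3
        all_goals first
          | exact congrArg Subtype.val (e2.trans e3.symm)
          | exact absurd (congrArg Subtype.val (e2.trans e1.symm)) hz1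
          | exact absurd (congrArg Subtype.val (e3.trans e1.symm)) hc1'
      rw [htwoFx Y hYFx (fun e => hgY (by rw [e, map_one]))] at hgY
      refine hgY ((hgm x).mpr ?_)
      rw [commutatorElement_self]
      exact one_mem _
    · rw [hm, pow_succ, pow_succ]; have := Nat.one_le_two_pow (n := m); omega
  -- the module bound
  have hQ0rad : ∀ u ∈ Q0, (∀ v ∈ Q0, ⁅u, v⁆ ∈ Subgroup.centralizer (V : Set G)) → u ∈ R := by
    intro u hu huv
    refine (hR u).mpr ⟨hQ0S hu, fun y hy => ?_⟩
    let M : Subgroup G :=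
      { carrier := {y | y ∈ S ∧ ⁅u, y⁆ ∈ Subgroup.centralizer (V : Set G)}
        one_mem' := ⟨one_mem S, by simp [one_mem]⟩
        mul_mem' := fun {a b} ha hb => ⟨mul_mem ha.1 hb.1, by
          rw [hmulr a b u ha.1 hb.1 (hQ0S hu)]; exact mul_mem ha.2 hb.2⟩
        inv_mem' := fun {a} ha => ⟨inv_mem ha.1, by
          have h := hmulr a⁻¹ a u (inv_mem ha.1) ha.1 (hQ0S hu)
          rw [inv_mul_cancel, commutatorElement_one_right, eq_comm, mul_eq_one_iff_eq_inv] at h
          rw [h]
          exact inv_mem ha.2⟩ }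
    have hle : S ≤ M := by
      conv_lhs => rw [← commutator_sup_centralizer hPS (by
        obtain ⟨m', hm'⟩ := IsPGroup.iff_card.mp hS
        rw [hPc, hm']
        exact ((Nat.coprime_primes hp Nat.prime_two).mpr hp2).pow_right m') (Or.inr hsolvS)]
      refine sup_le (fun z hz => ⟨hQ0S (le_sup_left (b := R) hz),
        huv z (le_sup_left (b := R) hz)⟩) (fun z hz => ⟨hz.1, ?_⟩)
      -- `[S, P]` is orthogonal to the fixed points
      let M' : Subgroup G :=
        { carrier := {w | w ∈ S ∧ ⁅w, z⁆ ∈ Subgroup.centralizer (V : Set G)}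
          one_mem' := ⟨one_mem S, by simp [one_mem]⟩
          mul_mem' := fun {a b} ha hb => ⟨mul_mem ha.1 hb.1, by
            rw [hmull a b z ha.1 hb.1 hz.1]; exact mul_mem hb.2 ha.2⟩
          inv_mem' := fun {a} ha => ⟨inv_mem ha.1, by
            have h := hmull a⁻¹ a z (inv_mem ha.1) ha.1 hz.1
            rw [inv_mul_cancel, commutatorElement_one_left, eq_comm, mul_eq_one_iff_inv_eq] at h
            rw [← h]
            exact inv_mem ha.2⟩ }
      have hM' : Q0 ≤ M' := by
        refine sup_le ?_ (fun w hw => ⟨hRS hw, ((hR w).mp hw).2 z hz.1⟩)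
        rw [Subgroup.commutator_le]
        intro a ha k hk
        refine ⟨commutator_le_of_le_normalizer hPS (Subgroup.commutator_mem_commutator ha hk), ?_⟩
        have hka : k * a⁻¹ * k⁻¹ ∈ S := conj_mem_of_le_normalizer hPS hk (inv_mem ha)
        rw [show ⁅a, k⁆ = a * (k * a⁻¹ * k⁻¹) by simp only [commutatorElement_def]; group,
          hmull _ _ z ha hka hz.1]
        have hzk : k⁻¹ * z * k = z := by
          rw [mul_assoc, ← Subgroup.mem_centralizer_iff.mp hz.2 k hk, inv_mul_cancel_left]
        have e1 : ⁅k * a⁻¹ * k⁻¹, z⁆ = k * ⁅a⁻¹, z⁆ * k⁻¹ := by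
          conv_rhs => rw [← hzk]
          simp only [commutatorElement_def]; group
        have e2 : ⁅a⁻¹, z⁆ = ⁅a, z⁆⁻¹ := by
          have h := hmull a⁻¹ a z (inv_mem ha) ha hz.1
          rw [inv_mul_cancel, commutatorElement_one_left, eq_comm, mul_eq_one_iff_inv_eq] at h
          exact h.symm
        have hzV : ⁅a, z⁆ ∈ Z := hcomm (Subgroup.commutator_mem_commutator ha hz.1)
        rw [e1, e2]
        by_cases hin : ⁅a, z⁆ ∈ Subgroup.centralizer (V : Set G)
        · exact mul_mem (conj_mem_of_le_normalizer hPCV hk (inv_mem hin)) hin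
        · refine hKle (htwo _ (conj_mem_of_le_normalizer hPZ hk (inv_mem hzV)) _ hzV ?_ ?_)
          · intro hmem
            have := inv_conj_mem_of_le_normalizer hPCV hk (hKle hmem)
            rw [show k⁻¹ * (k * ⁅a, z⁆⁻¹ * k⁻¹) * k = ⁅a, z⁆⁻¹ by group, inv_mem_iff] at this
            exact hin this
          · exact fun hmem => hin (hKle hmem)
      exact (hM' hu).2
    exact (hle hy).2
  have hQ0R : R.relIndex Q0 ≤ (p - 1) ^ 2 := by
    by_cases hab : ∀ a ∈ Q0, ∀ b ∈ Q0, ⁅a, b⁆ ∈ Subgroup.centralizer (V : Set G)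
    · -- then `Q0 ≤ R`
      suffices hle : Q0 ≤ R by
        rw [Subgroup.relIndex_eq_one.mpr hle]
        exact Nat.one_le_pow _ _ (by have := hp.two_le; omega)
      exact fun u hu => hQ0rad u hu (hab u hu)
    · simp only [not_forall] at hab
      obtain ⟨a, ha, b, hb, hab⟩ := hab
      have hSPV : S ⊔ P ≤ Subgroup.normalizer (V : Set G) := sup_le hSV hPV
      set f := conjAut hSPV with hf
      have hfker : ∀ g : (S ⊔ P : Subgroup G), f g = 1 ↔ (g : G) ∈ Subgroup.centralizer (V : Set G) :=
        fun g => by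
        rw [MulEquiv.ext_iff, Subgroup.mem_centralizer_iff]
        simp only [Subtype.ext_iff, hf, coe_conjAut, mul_inv_eq_iff_eq_mul, MulAut.one_apply,
          Subtype.forall, SetLike.mem_coe]
        exact forall₂_congr fun v _ => eq_comm
      let Qi : Subgroup f.range := (Q0.subgroupOf (S ⊔ P)).map f.rangeRestrict
      let Zi : Subgroup f.range := (R.subgroupOf (S ⊔ P)).map f.rangeRestrict
      have hSle : S ≤ S ⊔ P := le_sup_left
      have hmk : ∀ x y : (S ⊔ P : Subgroup G), (x : G) * (y : G)⁻¹ ∈ Subgroup.centralizer (V : Set G) →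
          f.rangeRestrict x = f.rangeRestrict y := fun x y h => Subtype.ext (by
        change f x = f y
        have := (hfker (x * y⁻¹)).mpr (by simpa using h)
        rwa [map_mul, map_inv, mul_inv_eq_one] at this)
      have hQ0norm : S ⊔ P ≤ Subgroup.normalizer (Q0 : Set G) := sup_le
        (H83.le_normalizer_of_commutator_le hQ0S (hcomR.trans le_sup_right))
        (H83.le_normalizer_sup (H83.le_normalizer_commutator hPS Subgroup.le_normalizer) hPR)
      haveI : (Q0.subgroupOf (S ⊔ P)).Normal := Subgroup.normal_subgroupOf_of_le_normalizer hQ0norm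
      haveI hQin : Qi.Normal := Subgroup.Normal.map inferInstance _ (MonoidHom.rangeRestrict_surjective _)
      -- `P` fixes the radical on the module
      have hPRc : ⁅P, R⁆ ≤ Subgroup.centralizer (V : Set G) :=
        commutator_le_centralizer_of_no_exception hr Nat.prime_two hp hr2 hrp (Ne.symm hp2)
          hPc (hS.to_le hRS) hPR hV hPV (hRS.trans hSV) hCP
          (fun _ _ u hu u' hu' => ((hR u).mp hu).2 u' (hRS hu'))
      have hZi : Zi ≤ Subgroup.center f.range := by
        rintro _ ⟨z, hz, rfl⟩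
        rw [Subgroup.mem_center_iff]
        rintro ⟨_, g, rfl⟩
        change f.rangeRestrict g * f.rangeRestrict z = f.rangeRestrict z * f.rangeRestrict g
        have hle : S ⊔ P ≤ ((Subgroup.centralizer ({f.rangeRestrict z} : Set f.range)).comap
            f.rangeRestrict).map (S ⊔ P : Subgroup G).subtype := by
          refine sup_le (fun x hx => ⟨⟨x, hSle hx⟩, ?_, rfl⟩)
            (fun x hx => ⟨⟨x, le_sup_right (a := S) hx⟩, ?_, rfl⟩)
          · refine Subgroup.mem_centralizer_iff.mpr fun w hw => ?_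
            rw [Set.mem_singleton_iff.mp hw, ← map_mul, ← map_mul]
            refine hmk _ _ ?_
            have := ((hR _).mp (Subgroup.mem_subgroupOf.mp hz)).2 x hx
            simpa [commutatorElement_def, mul_assoc] using this
          · refine Subgroup.mem_centralizer_iff.mpr fun w hw => ?_
            rw [Set.mem_singleton_iff.mp hw, ← map_mul, ← map_mul]
            refine hmk _ _ ?_
            have := inv_mem (hPRc (Subgroup.commutator_mem_commutator hx (Subgroup.mem_subgroupOf.mp hz)))
            simpa [commutatorElement_def, mul_assoc] using this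
        obtain ⟨g', hg', e⟩ := hle g.2
        obtain rfl : g' = g := Subtype.ext e
        exact (Subgroup.mem_centralizer_iff.mp hg' _ rfl).symm
      have hcardL : ¬ r ∣ Nat.card f.range := fun hd => by
        have h1 := hd.trans (Subgroup.card_range_dvd f)
        have hcPS : (Nat.card P).Coprime (Nat.card S) := by
          obtain ⟨m', hm'⟩ := IsPGroup.iff_card.mp hS
          rw [hPc, hm']
          exact ((Nat.coprime_primes hp Nat.prime_two).mpr hp2).pow_right m'
        rw [card_sup_of_coprime hPS hcPS, hPc] at h1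
        obtain ⟨m', hm'⟩ := IsPGroup.iff_card.mp hS
        rw [hm'] at h1
        rcases hr.dvd_mul.mp h1 with e | e
        · exact hr2 ((Nat.prime_dvd_prime_iff_eq hr Nat.prime_two).mp (hr.dvd_of_dvd_pow e))
        · exact hrp ((Nat.prime_dvd_prime_iff_eq hr hp).mp e)
      letI hmod : Module (ZMod r) (Additive V) := AddCommGroup.zmodModule fun v => by
        have : (Additive.toMul v) ^ r = 1 := Subtype.ext (hV.2 _ (Additive.toMul v).2)
        exact congrArg Additive.ofMul this
      have hSPR : S ≤ Subgroup.normalizer (R : Set G) := hSR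
      let mkQ : ∀ u, u ∈ Q0 → f.range := fun u hu => f.rangeRestrict ⟨u, hSle (hQ0S hu)⟩
      have hmkQ : ∀ u hu, mkQ u hu ∈ Qi := fun u hu => ⟨⟨u, hSle (hQ0S hu)⟩, hu, rfl⟩
      have hcommq : ∀ a ha b hb, ⁅mkQ a ha, mkQ b hb⁆ =
          f.rangeRestrict ⟨⁅a, b⁆, hSle (hZS (hcomm (Subgroup.commutator_mem_commutator (hQ0S ha) (hQ0S hb))))⟩ :=
        fun a ha b hb => by
        rw [← map_commutatorElement]
        exact congrArg _ (Subtype.ext (by simp [commutatorElement_def]))
      obtain ⟨dd, hdd, hdr, -⟩ := HH.index_eq_sq_of_action (p := r) (M := V) f.range.subtype hcardL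
        Qi Zi hQin (Subgroup.map_mono fun x hx => le_sup_right (a := ⁅S, P⁆) (Subgroup.mem_subgroupOf.mp hx))
        hZi
        (by
          rintro _ ⟨a', ha', rfl⟩ _ ⟨b', hb', rfl⟩
          rw [← map_commutatorElement]
          refine ⟨⁅a', b'⁆, Subgroup.mem_subgroupOf.mpr ?_, rfl⟩
          have := hcomR (Subgroup.commutator_mem_commutator (hQ0S (Subgroup.mem_subgroupOf.mp ha'))
            (hQ0S (Subgroup.mem_subgroupOf.mp hb')))
          simpa [commutatorElement_def] using this)
        hp (f.rangeRestrict ⟨π, le_sup_right (a := S) hπ⟩)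
        (by
          rw [← map_pow, show (⟨π, le_sup_right (a := S) hπ⟩ : (S ⊔ P : Subgroup G)) ^ p = 1 from
            Subtype.ext (by
              have := congrArg Subtype.val (pow_card_eq_one' (x := (⟨π, hπ⟩ : P)))
              rw [hPc] at this
              simpa using this), map_one])
        (fun w hw => by
          refine Subtype.ext (Subgroup.mem_bot.mp (hCP.le ⟨w.2, Subgroup.mem_centralizer_iff.mpr
            fun x hx => ?_⟩))
          change f _ w = w at hw
          have hπw : Commute π (w : G) := by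
            have h := congrArg Subtype.val hw
            rw [coe_conjAut] at h
            exact mul_inv_eq_iff_eq_mul.mp h
          obtain ⟨i, hi⟩ := Subgroup.mem_zpowers_iff.mp (hgen ⟨x, hx⟩)
          rw [show x = π ^ i from (congrArg Subtype.val hi).symm]
          exact (hπw.zpow_left i).eq)
        (by
          rintro _ ⟨u, hu, rfl⟩ j hj0 hjr hmem
          refine ⟨u, Subgroup.mem_subgroupOf.mpr ?_, rfl⟩
          set πj : (S ⊔ P : Subgroup G) := ⟨π, le_sup_right (a := S) hπ⟩ ^ j
          obtain ⟨w, hw, hwe⟩ := hmem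
          have hwR := Subgroup.mem_subgroupOf.mp hw
          have hwe' : f (u⁻¹ * (πj * u * πj⁻¹) * w⁻¹) = 1 := by
            have := congrArg Subtype.val hwe
            simp only [Subgroup.coe_mul, Subgroup.coe_inv, SubmonoidClass.coe_pow,
              MonoidHom.coe_rangeRestrict] at this
            simp only [map_mul, map_inv, πj, map_pow, ← this, mul_inv_cancel]
          have hC' := (hfker _).mp hwe'
          simp only [πj, Subgroup.coe_mul, Subgroup.coe_inv, SubmonoidClass.coe_pow] at hC'
          -- modulo `R`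
          have hπjP : π ^ j ∈ P := P.pow_mem hπ j
          have huQ : (u : G) ∈ Q0 := Subgroup.mem_subgroupOf.mp hu
          have huS := hQ0S huQ
          set z := (u : G)⁻¹ * (π ^ j * u * (π ^ j)⁻¹)
          have hzS : z ∈ S := S.mul_mem (S.inv_mem huS) (conj_mem_of_le_normalizer hPS hπjP huS)
          have hzR : z ∈ R := by
            have h1 : z * (w : G)⁻¹ ∈ R := (hR _).mpr ⟨S.mul_mem hzS (S.inv_mem (hRS hwR)),
              fun y hy => by
                have hyC := conj_mem_of_le_normalizer (le_normalizer_centralizer hSV) hy (inv_mem hC')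
                rw [show ⁅z * (w : G)⁻¹, y⁆ = (z * (w : G)⁻¹) * (y * (z * (w : G)⁻¹)⁻¹ * y⁻¹) by
                  simp only [commutatorElement_def]; group]
                exact mul_mem hC' hyC⟩
            have := R.mul_mem h1 hwR
            rwa [inv_mul_cancel_right] at this
          have hcP : (Nat.card P).Coprime (Nat.card S) := by
            obtain ⟨m', hm'⟩ := IsPGroup.iff_card.mp hS
            rw [hPc, hm']
            exact ((Nat.coprime_primes hp Nat.prime_two).mpr hp2).pow_right m'
          have hfixall : ∀ x ∈ P, (u : G)⁻¹ * (x * u * x⁻¹) ∈ R := by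
            intro x hx
            have hπj1 : (⟨π ^ j, hπjP⟩ : P) ≠ 1 := fun e => by
              have e' : (⟨π, hπ⟩ : P) ^ j = 1 := Subtype.ext (by simpa using congrArg Subtype.val e)
              have hord : orderOf (⟨π, hπ⟩ : P) = p := by
                rw [orderOf_eq_card_of_forall_mem_zpowers hgen, hPc]
              exact absurd (Nat.le_of_dvd hj0 (hord ▸ orderOf_dvd_of_pow_eq_one e')) (by omega)
            let Fixed : Subgroup G :=
              { carrier := {x | x ∈ P ∧ (u : G)⁻¹ * (x * u * x⁻¹) ∈ R}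
                one_mem' := ⟨one_mem P, by simp [one_mem]⟩
                mul_mem' := fun {a b} ha hb => ⟨mul_mem ha.1 hb.1, by
                  have h2 := conj_mem_of_le_normalizer hPR ha.1 hb.2
                  have := R.mul_mem ha.2 h2
                  rwa [show (u : G)⁻¹ * (a * u * a⁻¹) * (a * ((u : G)⁻¹ * (b * u * b⁻¹)) * a⁻¹) =
                    (u : G)⁻¹ * (a * b * u * (a * b)⁻¹) by group] at this⟩
                inv_mem' := fun {a} ha => ⟨inv_mem ha.1, by
                  have := R.inv_mem (inv_conj_mem_of_le_normalizer hPR ha.1 ha.2)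
                  rwa [show (a⁻¹ * ((u : G)⁻¹ * (a * u * a⁻¹)) * a)⁻¹ =
                    (u : G)⁻¹ * (a⁻¹ * u * a⁻¹⁻¹) by group] at this⟩ }
            obtain ⟨i, hi⟩ := Subgroup.mem_zpowers_iff.mp (mem_zpowers_of_prime_card hPc hπj1 :
              (⟨x, hx⟩ : P) ∈ Subgroup.zpowers _)
            rw [show x = (π ^ j) ^ i from by simpa using (congrArg Subtype.val hi).symm]
            exact (zpow_mem (show π ^ j ∈ Fixed from ⟨hπjP, hzR⟩) i : _).2
          set SP := ⁅S, P⁆ with hSPdef
          have hSPS : SP ≤ S := commutator_le_of_le_normalizer hPS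
          have hPSP : P ≤ Subgroup.normalizer (SP : Set G) :=
            H83.le_normalizer_commutator hPS Subgroup.le_normalizer
          obtain ⟨c1, hc1, r1, hr1, hc1e⟩ : (u : G) ∈ (SP : Set G) * (R : Set G) := by
            rw [← Subgroup.coe_mul_of_left_le_normalizer_right SP R (hSPS.trans hSR)]
            exact huQ
          let U : Subgroup G :=
            { carrier := {y | y ∈ SP ∧ ∀ x ∈ P, y⁻¹ * (x * y * x⁻¹) ∈ R}
              one_mem' := ⟨one_mem SP, fun x _ => by simp [one_mem]⟩
              mul_mem' := fun {a b} ha hb => ⟨mul_mem ha.1 hb.1, fun x hx => by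
                have h2 := inv_conj_mem_of_le_normalizer (hSPS.trans hSR) hb.1 (ha.2 x hx)
                have := R.mul_mem h2 (hb.2 x hx)
                rwa [show b⁻¹ * (a⁻¹ * (x * a * x⁻¹)) * b * (b⁻¹ * (x * b * x⁻¹)) =
                  (a * b)⁻¹ * (x * (a * b) * x⁻¹) by group] at this⟩
              inv_mem' := fun {a} ha => ⟨inv_mem ha.1, fun x hx => by
                have := conj_mem_of_le_normalizer (hSPS.trans hSR) ha.1 (R.inv_mem (ha.2 x hx))
                rwa [show a * (a⁻¹ * (x * a * x⁻¹))⁻¹ * a⁻¹ = a⁻¹⁻¹ * (x * a⁻¹ * x⁻¹) by group]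
                  at this⟩ }
          have hc1U : c1 ∈ U := ⟨hc1, fun x hx => by
            have h1 := hfixall x hx
            rw [← hc1e] at h1
            have h2 := R.mul_mem (R.mul_mem hr1 h1) (R.inv_mem (conj_mem_of_le_normalizer hPR hx hr1))
            rwa [show r1 * ((c1 * r1)⁻¹ * (x * (c1 * r1) * x⁻¹)) * (x * r1 * x⁻¹)⁻¹ =
              c1⁻¹ * (x * c1 * x⁻¹) by group] at h2⟩
          have hUR : U ≤ SP ⊓ R := H83.le_of_centralized_mod (A := P) (P := SP) hPSP
            (hcP.coprime_dvd_right (Subgroup.card_dvd_of_le hSPS))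
            (commutator_commutator_eq hPS hcP (Or.inr hsolvS))
            (le_normalizer_inf Subgroup.le_normalizer (hSPS.trans hSR))
            (le_normalizer_inf hPSP hPR)
            (le_inf (commutator_le_of_le_normalizer Subgroup.le_normalizer)
              ((Subgroup.commutator_mono hSPS hSPS).trans hcomR))
            (fun y hy => hy.1)
            (Subgroup.commutator_le.mpr fun y hy x hx => by
              have hy' := U.inv_mem hy
              refine ⟨?_, ?_⟩
              · have := SP.mul_mem hy.1 (conj_mem_of_le_normalizer hPSP hx (SP.inv_mem hy.1))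
                rwa [commutatorElement_def, mul_assoc (y * x), mul_assoc y, ← mul_assoc x]
              · have := hy'.2 x hx
                rw [inv_inv] at this
                rwa [commutatorElement_def, mul_assoc (y * x), mul_assoc y, ← mul_assoc x])
          rw [← hc1e]
          exact R.mul_mem (hUR hc1U).2 hr1)
        (hmkQ a ha) (hmkQ b hb)
        (fun he => hab (by
          rw [hcommq a ha b hb] at he
          exact (hfker _).mp he))
        (fun K' hK' hK'ab u hu huK => by
          obtain ⟨u', hu', rfl⟩ := hu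
          have hu'Q : (u' : G) ∈ Q0 := Subgroup.mem_subgroupOf.mp hu'
          refine ⟨u', Subgroup.mem_subgroupOf.mpr (hQ0rad _ hu'Q fun v hv => ?_), rfl⟩
          by_contra hvC
          have hvu : ⁅v, (u' : G)⁆ ∉ Subgroup.centralizer (V : Set G) := fun h => hvC (by
            rw [← commutatorElement_inv]; exact inv_mem h)
          have hzv := hcomm (Subgroup.commutator_mem_commutator (hQ0S hv) (hQ0S hu'Q))
          have hzab := hcomm (Subgroup.commutator_mem_commutator (hQ0S ha) (hQ0S hb))
          have hprod := hKle (htwo _ hzv _ hzab (fun h => hvu (hKle h)) (fun h => hab (hKle h)))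
          refine hK'ab ?_
          have h1 : ⁅mkQ v hv, mkQ (u' : G) hu'Q⁆ * ⁅mkQ a ha, mkQ b hb⁆ = 1 := by
            rw [hcommq v hv _ hu'Q, hcommq a ha b hb, ← map_mul, ← map_one f.rangeRestrict]
            exact hmk _ _ (by simpa using hprod)
          rw [eq_inv_of_mul_eq_one_right h1]
          exact inv_mem (huK _ (hmkQ v hv)))
      have hrel : Zi.relIndex Qi = R.relIndex Q0 := by
        rw [show Qi = (Q0.subgroupOf (S ⊔ P)).map f.rangeRestrict from rfl, ← Subgroup.relIndex_comap,
          ← Subgroup.inf_relIndex_right]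
        have heq : Zi.comap f.rangeRestrict ⊓ Q0.subgroupOf (S ⊔ P) =
            R.subgroupOf (S ⊔ P) ⊓ Q0.subgroupOf (S ⊔ P) := by
          refine le_antisymm (fun x hx => ⟨?_, hx.2⟩) (inf_le_inf_right _ (Subgroup.le_comap_map _ _))
          obtain ⟨w, hw, hwx⟩ := hx.1
          have hwR : (w : G) ∈ R := Subgroup.mem_subgroupOf.mp hw
          have h1 : (x : G) * (w : G)⁻¹ ∈ Subgroup.centralizer (V : Set G) := by
            have := (hfker (x * w⁻¹)).mp (by
              rw [map_mul, map_inv, ← show f w = f x from congrArg Subtype.val hwx, mul_inv_cancel])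
            simpa using this
          have hxS : (x : G) ∈ S := hQ0S (Subgroup.mem_subgroupOf.mp hx.2)
          have h2 : (x : G) * (w : G)⁻¹ ∈ R := (hR _).mpr ⟨S.mul_mem hxS (S.inv_mem (hRS hwR)),
            fun y hy => by
              rw [commutatorElement_def, mul_assoc, mul_assoc, ← mul_assoc y]
              exact mul_mem h1 (conj_mem_of_le_normalizer (le_normalizer_centralizer hSV) hy
                (inv_mem h1))⟩
          have := R.mul_mem h2 hwR
          rwa [inv_mul_cancel_right] at this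
        rw [heq, Subgroup.inf_relIndex_right, Subgroup.relIndex_subgroupOf (hQ0S.trans le_sup_left)]
      rw [← hrel, hdd, show p - 1 = dd by omega, pow_two]
  have hlt := sq_lt_four_pow hp.two_le hm2
  rw [hcard] at hMc
  have h1 : Nat.card Fx ^ p ≤ Nat.card Fx * (p - 1) ^ 2 :=
    hMc.trans (Nat.mul_le_mul_left _ hQ0R)
  rw [← Nat.sub_add_cancel hp.one_le, pow_succ', Nat.add_sub_cancel] at h1
  exact absurd (Nat.le_of_mul_le_mul_left h1 (by omega)) (not_le.mpr hlt)

end Cfsg.Agent.H90.PQ
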