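import Cfsg.Agent.H90.PQ.Setup
import Cfsg.Agent.H20.Hyperplane

/-! Hyperplanes of an elementary abelian group invariant under a group of order `pq` acting without
fixed points on a module. -/

set_option autoImplicit false
open scoped commutatorElement IsMulCommutative

namespace Cfsg.Agent.H90.PQ

open Cfsg.Agent.H20

variable {G : Type*} [Group G] [Finite G]

/-- A proper subgroup containing a hyperplane equals it. -/
theorem eq_of_relIndex_prime {Z K U : Subgroup G} {s : ℕ} (hs : s.Prime) (hKs : K.relIndex Z = s)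
    (hKU : K ≤ U) (hUZ : U ≤ Z) : U = K ∨ U = Z := by
  have h := Subgroup.relIndex_mul_relIndex K U Z hKU hUZ
  rw [hKs] at h
  rcases (Nat.dvd_prime hs).mp ⟨_, h.symm⟩ with e | e
  · exact Or.inl (le_antisymm (Subgroup.relIndex_eq_one.mp e) hKU)
  · rw [e, Nat.mul_eq_left hs.ne_zero] at h
    exact Or.inr (le_antisymm hUZ (Subgroup.relIndex_eq_one.mp h))

variable {A Q V Z K : Subgroup G} {s : ℕ} [IsMulCommutative V] [IsMulCommutative Z]

/-- A vector of `C_V(K)` fixed by the whole stabilizer of `K` is trivial. -/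
theorem eq_one_of_regular (hs : s.Prime) (hAV : A ≤ Subgroup.normalizer (V : Set G))
    (hAZ : A ≤ Subgroup.normalizer (Z : Set G)) (hZV : Z ≤ Subgroup.normalizer (V : Set G))
    (hCZ : V ⊓ Subgroup.centralizer (Z : Set G) = ⊥) (hCA : V ⊓ Subgroup.centralizer (A : Set G) = ⊥)
    (hKZ : K ≤ Z) (hKs : K.relIndex Z = s) (hcop : (Nat.card Z).Coprime (Nat.card V)) {v : G}
    (hv : v ∈ V) (hvK : v ∈ Subgroup.centralizer (K : Set G))
    (hfix : ∀ a ∈ A, a ∈ Subgroup.normalizer (K : Set G) → a * v = v * a) : v = 1 := by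
  classical
  set X : Subgroup A := (Subgroup.normalizer (K : Set G)).subgroupOf A with hX
  let _ := Fintype.ofFinite (A ⧸ X)
  let _ := Fintype.ofFinite K
  set φ := conjAut hAV
  have hwd : ∀ a b : A, (QuotientGroup.mk a : A ⧸ X) = QuotientGroup.mk b →
      φ a ⟨v, hv⟩ = φ b ⟨v, hv⟩ := by
    intro a b hab
    have hmem : a⁻¹ * b ∈ X := QuotientGroup.eq.mp hab
    have h := hfix _ (a⁻¹ * b).2 (Subgroup.mem_subgroupOf.mp hmem)
    have e : φ (a⁻¹ * b) ⟨v, hv⟩ = ⟨v, hv⟩ := Subtype.ext (by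
      rw [coe_conjAut, h, mul_inv_cancel_right])
    conv_rhs => rw [← mul_inv_cancel_left a b, map_mul, MulAut.mul_apply, e]
  set term : A ⧸ X → V := fun c => φ c.out ⟨v, hv⟩
  have hterm : ∀ a : A, term (QuotientGroup.mk a) = φ a ⟨v, hv⟩ := fun a =>
    hwd _ _ (QuotientGroup.out_eq' _)
  set n := ∏ c, term c with hn
  have hn1 : n = 1 := by
    have hnfix : ∀ a : A, φ a n = n := fun a => by
      rw [hn, map_prod]
      refine Fintype.prod_equiv (MulAction.toPerm a) _ _ fun c => ?_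
      induction c using QuotientGroup.induction_on with
      | H b => rw [MulAction.toPerm_apply, MulAction.Quotient.smul_mk, hterm, hterm, smul_eq_mul,
          map_mul, MulAut.mul_apply]
    refine Subtype.ext (Subgroup.mem_bot.mp (hCA.le ⟨n.2, Subgroup.mem_centralizer_iff.mpr
      fun a ha => ?_⟩))
    have h := congrArg Subtype.val (hnfix ⟨a, ha⟩)
    rw [coe_conjAut] at h
    exact mul_inv_eq_iff_eq_mul.mp h
  set ψ := conjAut (le_trans hKZ hZV)
  let N : V →* V := ∏ k : K, (ψ k).toMonoidHom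
  have hN : ∀ w, N w = ∏ k : K, ψ k w := fun w => by simp [N]
  have hNK : ∀ (k : K) w, ψ k (N w) = N w := fun k w => by
    rw [hN, map_prod]
    exact Fintype.prod_equiv (Equiv.mulLeft k) _ _ fun j => by
      rw [Equiv.coe_mulLeft, map_mul, MulAut.mul_apply]
  have hother : ∀ c : A ⧸ X, c ≠ QuotientGroup.mk 1 → N (term c) = 1 := by
    intro c hc
    induction c using QuotientGroup.induction_on with
    | H a =>
      rw [hterm]
      set w := φ a ⟨v, hv⟩ with hw
      let U : Subgroup G := Z ⊓ Subgroup.centralizer ({(N w : G)} : Set G)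
      have hKU : K ≤ U := fun k hk => ⟨hKZ hk, Subgroup.mem_centralizer_iff.mpr (by
        rintro _ rfl
        have h := congrArg Subtype.val (hNK ⟨k, hk⟩ w)
        rw [coe_conjAut] at h
        exact (mul_inv_eq_iff_eq_mul.mp h).symm)⟩
      rcases eq_of_relIndex_prime hs hKs hKU inf_le_left with e | e
      · refine absurd (QuotientGroup.eq.mpr ?_) hc
        rw [mul_one, inv_mem_iff, hX, Subgroup.mem_subgroupOf,
          Subgroup.mem_normalizer_iff_map_conj_eq]
        refine Subgroup.eq_of_le_of_card_ge ?_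
          (by rw [Subgroup.card_map_of_injective (MulEquiv.injective _)])
        rintro _ ⟨k, hk, rfl⟩
        have hkZ : (a : G) * k * (a : G)⁻¹ ∈ Z := conj_mem_of_le_normalizer hAZ a.2 (hKZ hk)
        refine e.le ⟨hkZ, Subgroup.mem_centralizer_iff.mpr ?_⟩
        rintro _ rfl
        set k' := (a : G) * k * (a : G)⁻¹
        have hkw : ∀ j : K, k' * (ψ j w : G) = (ψ j w : G) * k' := fun j => by
          have hj : (j : G) * k' = k' * j :=
            congrArg Subtype.val (mul_comm' (⟨j, hKZ j.2⟩ : Z) ⟨k', hkZ⟩)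
          have hvw : k' * (w : G) = (w : G) * k' := by
            rw [hw, coe_conjAut]
            have := Subgroup.mem_centralizer_iff.mp hvK k hk
            calc k' * ((a : G) * v * (a : G)⁻¹) = (a : G) * (k * v) * (a : G)⁻¹ := by
                  simp only [k']; group
              _ = (a : G) * v * (a : G)⁻¹ * k' := by rw [this]; simp only [k']; group
          rw [coe_conjAut]
          exact ((show Commute k' (j : G) from hj.symm).mul_right hvw).mul_right
            (show Commute k' (j : G) from hj.symm).inv_right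
        have hprod : ∀ F : Finset K, k' * ((∏ j ∈ F, ψ j w : V) : G) =
            ((∏ j ∈ F, ψ j w : V) : G) * k' := by
          intro F
          induction F using Finset.induction_on with
          | empty => simp
          | insert j F hj ih =>
            rw [Finset.prod_insert hj, Subgroup.coe_mul]
            exact (show Commute k' _ from hkw j).mul_right ih
        rw [hN]
        exact (hprod Finset.univ).symm
      · refine Subtype.ext (Subgroup.mem_bot.mp (hCZ.le ⟨(N w).2, Subgroup.mem_centralizer_iff.mpr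
          fun z hz => ?_⟩))
        exact ((Subgroup.mem_centralizer_iff.mp (e.ge hz).2) _ rfl).symm
  have hsingle := congrArg N hn1
  rw [hn, map_prod, map_one, Fintype.prod_eq_single (QuotientGroup.mk 1 : A ⧸ X) hother, hterm,
    map_one, MulAut.one_apply, hN] at hsingle
  have hconst : ∀ k : K, ψ k ⟨v, hv⟩ = ⟨v, hv⟩ := fun k => Subtype.ext (by
    rw [coe_conjAut, Subgroup.mem_centralizer_iff.mp hvK k k.2, mul_inv_cancel_right])
  rw [Finset.prod_congr rfl (fun k _ => hconst k), Finset.prod_const, Finset.card_univ,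
    ← Nat.card_eq_fintype_card] at hsingle
  have hc : (Nat.card V).Coprime (Nat.card K) :=
    (hcop.coprime_dvd_left (Subgroup.card_dvd_of_le hKZ)).symm
  exact congrArg Subtype.val ((powCoprime hc).injective
    (a₁ := ⟨v, hv⟩) (a₂ := 1) (by simpa [powCoprime] using hsingle))

omit [IsMulCommutative V] in
/-- A hyperplane with nontrivial centralizer in the module exists. -/
theorem exists_hyperplane (hs : s.Prime) (hexp : ∀ z ∈ Z, z ^ s = 1)
    (hZV : Z ≤ Subgroup.normalizer (V : Set G)) (hcop : (Nat.card Z).Coprime (Nat.card V))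
    (hCZ : V ⊓ Subgroup.centralizer (Z : Set G) = ⊥) (hV : V ≠ ⊥) :
    ∃ K, K ≤ Z ∧ K.relIndex Z = s ∧ V ⊓ Subgroup.centralizer (K : Set G) ≠ ⊥ := by
  by_contra hcon
  simp only [not_exists, not_and, not_not] at hcon
  refine hV (eq_bot_iff.mpr (le_of_cocyclic_centralizers_le hZV hcop fun B hB ⟨a, ha, hBa⟩ => ?_))
  by_cases hBZ : B = Z
  · rw [hBZ, hCZ]
  refine (hcon B hB ?_).le
  haveI : (B.subgroupOf Z).Normal := ⟨fun b hb g => by rwa [mul_comm' g b, mul_inv_cancel_right]⟩
  have hcard : Nat.card (Z ⧸ B.subgroupOf Z) ∣ s := by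
    have hgen : Subgroup.zpowers (QuotientGroup.mk (⟨a, ha⟩ : Z) : Z ⧸ B.subgroupOf Z) = ⊤ := by
      rw [eq_top_iff]
      intro x _
      induction x using QuotientGroup.induction_on with
      | H z =>
        have hz : (z : G) ∈ B ⊔ Subgroup.zpowers a := hBa.symm ▸ z.2
        rw [Subgroup.sup_eq_closure] at hz
        refine Subgroup.closure_induction (p := fun y _ => ∀ hy : y ∈ Z,
          (QuotientGroup.mk (⟨y, hy⟩ : Z) : Z ⧸ B.subgroupOf Z) ∈ Subgroup.zpowers _)
          ?_ ?_ ?_ ?_ hz z.2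
        · rintro y (hy | hy) hyZ
          · rw [(QuotientGroup.eq_one_iff (⟨y, hyZ⟩ : Z)).mpr (Subgroup.mem_subgroupOf.mpr hy)]
            exact one_mem _
          · obtain ⟨i, rfl⟩ := Subgroup.mem_zpowers_iff.mp hy
            exact Subgroup.mem_zpowers_iff.mpr ⟨i, by rw [← QuotientGroup.mk_zpow]; rfl⟩
        · intro _; exact one_mem _
        · intro y y' hy hy' ihy ihy' _
          have m1 : y ∈ Z := by
            rw [← Subgroup.sup_eq_closure] at hy; exact hBa.le hy
          have m2 : y' ∈ Z := by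
            rw [← Subgroup.sup_eq_closure] at hy'; exact hBa.le hy'
          exact mul_mem (ihy m1) (ihy' m2)
        · intro y _ ihy hyZ
          exact inv_mem (ihy (inv_mem_iff.mp hyZ))
    rw [← Subgroup.card_top, ← hgen, Nat.card_zpowers]
    exact orderOf_dvd_of_pow_eq_one (by
      rw [← QuotientGroup.mk_pow, show (⟨a, ha⟩ : Z) ^ s = 1 from Subtype.ext (hexp a ha),
        QuotientGroup.mk_one])
  rcases (Nat.dvd_prime hs).mp hcard with e | e
  · exact absurd (le_antisymm hB (Subgroup.relIndex_eq_one.mp e)) hBZ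
  · exact e

/-- The two kinds of hyperplanes. -/
theorem hyperplane_cases {p q : ℕ} (hPQ : IsPQ A Q p q) (hs : s.Prime)
    (hexp : ∀ z ∈ Z, z ^ s = 1) (hAV : A ≤ Subgroup.normalizer (V : Set G))
    (hAZ : A ≤ Subgroup.normalizer (Z : Set G)) (hZV : Z ≤ Subgroup.normalizer (V : Set G))
    (hCZ : V ⊓ Subgroup.centralizer (Z : Set G) = ⊥) (hCA : V ⊓ Subgroup.centralizer (A : Set G) = ⊥)
    (hZA : Z ⊓ Subgroup.centralizer (A : Set G) = ⊥)
    (hcop : (Nat.card Z).Coprime (Nat.card V)) (hpV : p.Coprime (Nat.card Z))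
    (hqZ : q.Coprime (Nat.card Z))
    (hKZ : K ≤ Z) (hKs : K.relIndex Z = s) (hW : V ⊓ Subgroup.centralizer (K : Set G) ≠ ⊥) :
    (Q ≤ Subgroup.normalizer (K : Set G) ∧
      V ⊓ Subgroup.centralizer (K : Set G) ⊓ Subgroup.centralizer (Q : Set G) = ⊥) ∨
    ∃ P : Subgroup G, P ≤ A ∧ Nat.card P = p ∧ P ≤ Subgroup.normalizer (K : Set G) ∧
      V ⊓ Subgroup.centralizer (K : Set G) ⊓ Subgroup.centralizer (P : Set G) = ⊥ := by
  set X := A ⊓ Subgroup.normalizer (K : Set G) with hX
  set W := V ⊓ Subgroup.centralizer (K : Set G) with hWdef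
  have hreg : W ⊓ Subgroup.centralizer (X : Set G) = ⊥ := by
    rw [eq_bot_iff]
    rintro v ⟨hvW, hvX⟩
    exact Subgroup.mem_bot.mpr (eq_one_of_regular hs hAV hAZ hZV hCZ hCA hKZ hKs hcop hvW.1 hvW.2
      fun a ha hn => Subgroup.mem_centralizer_iff.mp hvX a ⟨ha, hn⟩)
  rcases hPQ.cases (inf_le_left : X ≤ A) with e | e | e | e
  · refine absurd ?_ hW
    rwa [show X = ⊥ from e, inf_eq_left.mpr] at hreg
    intro v _
    exact Subgroup.mem_centralizer_iff.mpr fun x hx => by
      rw [Subgroup.mem_bot.mp hx, one_mul, mul_one]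
  · exact Or.inl ⟨e.ge.trans inf_le_right, by rwa [show X = Q from e] at hreg⟩
  · exact Or.inr ⟨X, inf_le_left, e, inf_le_right, hreg⟩
  refine Or.inl ⟨(hPQ.le.trans e.ge).trans inf_le_right, ?_⟩
  have hAK : A ≤ Subgroup.normalizer (K : Set G) := e.ge.trans inf_le_right
  obtain ⟨P, hP, hPc⟩ := hPQ.exists_P
  -- `A` acts on `Z / K` through an abelian group
  obtain ⟨z0, hz0, hz0K⟩ := Set.not_subset.mp (fun hle : (Z : Set G) ⊆ K => hs.ne_one
    (hKs.symm.trans (Subgroup.relIndex_eq_one.mpr hle)))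
  have hgenZ : ∀ y ∈ Z, ∃ i : ℕ, (z0 ^ i)⁻¹ * y ∈ K := by
    intro y hy
    haveI : (K.subgroupOf Z).Normal := ⟨fun b hb g => by rwa [mul_comm' g b, mul_inv_cancel_right]⟩
    haveI := Fact.mk hs
    have hcard : Nat.card (Z ⧸ K.subgroupOf Z) = s := hKs
    obtain ⟨i, hi⟩ := Subgroup.mem_zpowers_iff.mp (mem_zpowers_of_prime_card hcard
      (g := (QuotientGroup.mk ⟨z0, hz0⟩ : Z ⧸ K.subgroupOf Z))
      (g' := QuotientGroup.mk ⟨y, hy⟩)
      (fun h => hz0K (Subgroup.mem_subgroupOf.mp ((QuotientGroup.eq_one_iff _).mp h))))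
    refine ⟨(i % s).toNat, ?_⟩
    have hi' : (QuotientGroup.mk ((⟨z0, hz0⟩ : Z) ^ (i % s).toNat) : Z ⧸ K.subgroupOf Z) =
        QuotientGroup.mk ⟨y, hy⟩ := by
      rw [QuotientGroup.mk_pow, ← zpow_natCast, Int.toNat_of_nonneg (Int.emod_nonneg _ (by
        exact_mod_cast hs.ne_zero)), ← hi, eq_comm]
      have hs1 : (QuotientGroup.mk ⟨z0, hz0⟩ : Z ⧸ K.subgroupOf Z) ^ s = 1 :=
        hcard ▸ pow_card_eq_one'
      conv_lhs => rw [← Int.emod_add_mul_ediv i s, zpow_add, zpow_mul, zpow_natCast, hs1,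
        one_zpow, mul_one]
    exact Subgroup.mem_subgroupOf.mp (QuotientGroup.eq.mp hi')
  let M : Subgroup A :=
    { carrier := {a | ∀ z ∈ Z, z⁻¹ * ((a : G) * z * (a : G)⁻¹) ∈ K}
      one_mem' := fun z _ => by simp [K.one_mem]
      mul_mem' := fun {a b} ha hb z hz => by
        have h1 := ha _ (conj_mem_of_le_normalizer hAZ b.2 hz)
        have h2 := hb z hz
        rw [show z⁻¹ * (((a * b : A) : G) * z * ((a * b : A) : G)⁻¹) =
          z⁻¹ * ((b : G) * z * (b : G)⁻¹) * (((b : G) * z * (b : G)⁻¹)⁻¹ *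
            ((a : G) * ((b : G) * z * (b : G)⁻¹) * (a : G)⁻¹)) by rw [Subgroup.coe_mul]; group]
        exact K.mul_mem h2 h1
      inv_mem' := fun {a} ha z hz => by
        have h1 := K.inv_mem (ha _ (inv_conj_mem_of_le_normalizer hAZ a.2 hz))
        rw [show z⁻¹ * (((a⁻¹ : A) : G) * z * ((a⁻¹ : A) : G)⁻¹) =
          ((((a : G)⁻¹ * z * a)⁻¹ * ((a : G) * ((a : G)⁻¹ * z * a) * (a : G)⁻¹))⁻¹) by
            rw [Subgroup.coe_inv]; group]
        exact h1 }
  have hcommM : commutator A ≤ M := by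
    rw [commutator_def, Subgroup.commutator_le]
    intro a _ b _
    obtain ⟨i, hi⟩ := hgenZ _ (conj_mem_of_le_normalizer hAZ a.2 hz0)
    obtain ⟨j, hj⟩ := hgenZ _ (conj_mem_of_le_normalizer hAZ b.2 hz0)
    -- congruence modulo `K` as equality in `Z ⧸ K`
    haveI : (K.subgroupOf Z).Normal := ⟨fun b hb g => by rwa [mul_comm' g b, mul_inv_cancel_right]⟩
    let π := QuotientGroup.mk' (K.subgroupOf Z)
    let f := conjAut hAZ
    have hKf : ∀ (c : A) (x y : Z), π x = π y → π (f c x) = π (f c y) := fun c x y hxy => by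
      rw [QuotientGroup.mk'_apply, QuotientGroup.mk'_apply, QuotientGroup.eq, ← map_inv, ← map_mul,
        Subgroup.mem_subgroupOf, coe_conjAut]
      exact conj_mem_of_le_normalizer hAK c.2 (Subgroup.mem_subgroupOf.mp (QuotientGroup.eq.mp hxy))
    have hpw : ∀ c : A, ∀ k : ℕ, (z0 ^ k)⁻¹ * ((c : G) * z0 * (c : G)⁻¹) ∈ K →
        ∀ y : Z, π (f c y) = π y ^ k := by
      intro c k hk y
      obtain ⟨m, hm⟩ := hgenZ y y.2
      have hy : π y = π ⟨z0, hz0⟩ ^ m := by
        rw [← map_pow, eq_comm, QuotientGroup.mk'_apply, QuotientGroup.mk'_apply, QuotientGroup.eq,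
          Subgroup.mem_subgroupOf]
        exact hm
      have hc0 : π (f c ⟨z0, hz0⟩) = π ⟨z0, hz0⟩ ^ k := by
        rw [← map_pow, eq_comm, QuotientGroup.mk'_apply, QuotientGroup.mk'_apply, QuotientGroup.eq,
          Subgroup.mem_subgroupOf]
        exact hk
      have hy' : π (f c y) = π (f c (⟨z0, hz0⟩ ^ m)) := hKf c _ _ (by rw [hy, map_pow])
      rw [hy', map_pow, map_pow, hc0, hy, ← pow_mul, ← pow_mul, mul_comm]
    intro z hz
    have hij : ∀ y : Z, π (f a (f b y)) = π (f b (f a y)) := fun y => by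
      rw [hpw a i hi, hpw b j hj, hpw b j hj, hpw a i hi, ← pow_mul, ← pow_mul, mul_comm]
    have h := hij (f a⁻¹ (f b⁻¹ ⟨z, hz⟩))
    have e1 : f b (f a (f a⁻¹ (f b⁻¹ (⟨z, hz⟩ : Z)))) = ⟨z, hz⟩ := by
      simp only [← MulAut.mul_apply, ← map_mul]; simp
    rw [e1, eq_comm, QuotientGroup.mk'_apply, QuotientGroup.mk'_apply, QuotientGroup.eq,
      Subgroup.mem_subgroupOf] at h
    simp only [f, ← MulAut.mul_apply, ← map_mul, Subgroup.coe_mul, Subgroup.coe_inv,
      coe_conjAut] at h
    simpa [commutatorElement_def, mul_assoc] using h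
  have hQM : ∀ u ∈ Q, ∀ z ∈ Z, z⁻¹ * (u * z * u⁻¹) ∈ K := fun u hu => by
    have h := hPQ.Q_le_ker (Abelianization.of (G := A)) u hu
    exact hcommM ((QuotientGroup.eq_one_iff _).mp h)
  by_contra hne
  -- `P` cannot centralize `Z / K`
  have hPcop : (Nat.card P).Coprime (Nat.card Z) := by rw [hPc]; exact hpV
  have hPZ : P ≤ Subgroup.normalizer (Z : Set G) := hP.trans hAZ
  have hnot : ¬ ⁅Z, P⁆ ≤ K := by
    intro hle
    have hM : ∀ a ∈ A, ∀ z ∈ Z, z⁻¹ * (a * z * a⁻¹) ∈ K := by
      have hMtop : A ≤ M.map A.subtype := by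
        conv_lhs => rw [← hPQ.sup_Q hP hPc]
        refine sup_le (fun x hx => ⟨⟨x, hP hx⟩, fun z hz => ?_, rfl⟩)
          (fun u hu => ⟨⟨u, hPQ.le hu⟩, hQM u hu, rfl⟩)
        have := hle (Subgroup.commutator_mem_commutator (Z.inv_mem hz) hx)
        rwa [commutatorElement_def, inv_inv, mul_assoc, mul_assoc, ← mul_assoc x] at this
      intro a ha z hz
      obtain ⟨⟨_, _⟩, hb, e⟩ := hMtop ha
      obtain rfl : _ = a := e
      exact hb z hz
    obtain ⟨c, hc⟩ := H20.exists_fixed_mem_coset (A := A) (K := Z) (N := K)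
      (by rw [hPQ.card_A]; exact Nat.Coprime.mul_left hpV hqZ) (Or.inl hPQ.isSolvable) hKZ hAK hz0
      (fun a ha => hM a ha z0 hz0)
    have hc1 : c = 1 := Subgroup.mem_bot.mp (hZA.le ⟨hc.1.1, hc.1.2⟩)
    rw [hc1, mul_one, inv_mem_iff] at hc
    exact hz0K hc.2
  have hfix : ⁅Z, P⁆ ⊓ Subgroup.centralizer (P : Set G) = ⊥ := le_bot_iff.mp (le_trans
    (le_inf (le_inf (inf_le_left.trans (commutator_le_of_le_normalizer hPZ)) inf_le_right)
      inf_le_left) (centralizer_inf_commutator_eq_bot hPZ hPcop).le)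
  have hZW : ⁅Z, P⁆ ≤ Subgroup.normalizer ((W ⊓ Subgroup.centralizer (Q : Set G) : Subgroup G) : Set G) := by
    refine (commutator_le_of_le_normalizer hPZ).trans (Subgroup.le_normalizer_iff.mpr
      fun z hz w hw => ?_)
    refine ⟨⟨conj_mem_of_le_normalizer hZV hz hw.1.1,
      Subgroup.mem_centralizer_iff.mpr fun k hk => ?_⟩, Subgroup.mem_centralizer_iff.mpr fun u hu => ?_⟩
    · have h1 : k * z = z * k := congrArg Subtype.val (mul_comm' (⟨k, hKZ hk⟩ : Z) ⟨z, hz⟩)
      have h2 := Subgroup.mem_centralizer_iff.mp hw.1.2 k hk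
      exact ((show Commute k z from h1).mul_right h2).mul_right (show Commute k z from h1).inv_right
    · set k := z⁻¹ * (u * z * u⁻¹)
      have hk : k ∈ K := hQM u hu z hz
      have h2 := Subgroup.mem_centralizer_iff.mp hw.1.2 k hk
      have h3 := Subgroup.mem_centralizer_iff.mp hw.2 u hu
      calc u * (z * w * z⁻¹) = (u * z * u⁻¹) * (u * w) * z⁻¹ := by group
        _ = z * (k * w) * k⁻¹ * z⁻¹ * u := by rw [h3]; simp only [k]; group
        _ = z * w * z⁻¹ * u := by rw [h2]; group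
  have hPW : P ≤ Subgroup.normalizer ((W ⊓ Subgroup.centralizer (Q : Set G) : Subgroup G) : Set G) :=
    le_normalizer_inf (le_normalizer_inf (hP.trans hAV) (le_normalizer_centralizer (hP.trans hAK)))
      (le_normalizer_centralizer (hP.trans hPQ.le_normalizer))
  haveI : IsMulCommutative (W ⊓ Subgroup.centralizer (Q : Set G) : Subgroup G) :=
    IsMulCommutative.of_comm fun a b => Subtype.ext
      (congrArg Subtype.val (mul_comm' (⟨a, a.2.1.1⟩ : V) ⟨b, b.2.1.1⟩) :)
  refine HH.fixed_ne_bot_of_fpf hPQ.hp hPc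
    (hpV.coprime_dvd_right (Subgroup.card_dvd_of_le (commutator_le_of_le_normalizer hPZ)))
    ((hcop.coprime_dvd_left (Subgroup.card_dvd_of_le (commutator_le_of_le_normalizer hPZ))).symm
      |>.coprime_dvd_left (Subgroup.card_dvd_of_le (inf_le_left.trans inf_le_left)))
    (H83.le_normalizer_commutator hPZ Subgroup.le_normalizer) hPW hZW hfix (fun hle => hne ?_)
    (eq_bot_iff.mpr ?_)
  · rw [eq_bot_iff]
    intro w hw
    refine hCZ.le ⟨hw.1.1, Subgroup.mem_centralizer_iff.mpr fun z hz => ?_⟩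
    have hU : Z ≤ Subgroup.centralizer ({w} : Set G) := by
      rcases eq_of_relIndex_prime (U := Z ⊓ Subgroup.centralizer ({w} : Set G)) hs hKs
        (fun k hk => ⟨hKZ hk, Subgroup.mem_centralizer_iff.mpr (by
          rintro _ rfl; exact (Subgroup.mem_centralizer_iff.mp hw.1.2 k hk).symm)⟩) inf_le_left
        with e' | e'
      · refine absurd (fun x hx => e'.le ⟨commutator_le_of_le_normalizer hPZ hx,
          Subgroup.mem_centralizer_iff.mpr ?_⟩) hnot
        intro x' hx'
        rw [Set.mem_singleton_iff.mp hx']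
        exact Subgroup.mem_centralizer_iff.mp (hle hx) w hw
      · exact e'.ge.trans inf_le_right
    exact ((Subgroup.mem_centralizer_iff.mp (hU hz)) w rfl).symm
  · rintro w ⟨hw, hwP⟩
    refine hCA.le ⟨hw.1.1, ?_⟩
    have hAw : A ≤ Subgroup.centralizer ({w} : Set G) := by
      rw [← hPQ.sup_Q hP hPc]
      refine sup_le (fun x hx => Subgroup.mem_centralizer_iff.mpr ?_)
        (fun x hx => Subgroup.mem_centralizer_iff.mpr ?_)
      · rintro _ rfl; exact (Subgroup.mem_centralizer_iff.mp hwP x hx).symm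
      · rintro _ rfl; exact (Subgroup.mem_centralizer_iff.mp hw.2 x hx).symm
    exact Subgroup.mem_centralizer_iff.mpr fun a ha =>
      ((Subgroup.mem_centralizer_iff.mp (hAw ha)) w rfl).symm

end Cfsg.Agent.H90.PQ
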