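import Cfsg.Agent.H90.PQ.Hyperplane
import Cfsg.Agent.H21.FrobeniusStructure

/-! Translates by `Q` of a subgroup fixed modulo `[T, P]`. -/

set_option autoImplicit false
open scoped Pointwise commutatorElement IsMulCommutative

namespace Cfsg.Agent.H90.PQ

open Cfsg.Agent.H20

variable {G : Type*} [Group G]

/-- Conjugation of subgroups by an element normalising one. -/
theorem le_normalizer_conj_smul {X R : Subgroup G} {u : G}
    (hu : u ∈ Subgroup.normalizer (X : Set G)) (hX : X ≤ Subgroup.normalizer (R : Set G)) :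
    X ≤ Subgroup.normalizer ((MulAut.conj u • R : Subgroup G) : Set G) := by
  rw [Subgroup.le_normalizer_iff]
  intro x hx r hr
  rw [mem_conj_smul] at hr ⊢
  have h1 : u⁻¹ * x * u ∈ X := (Subgroup.mem_normalizer_iff''.mp hu x).mp hx
  have := conj_mem_of_le_normalizer hX h1 hr
  convert this using 1
  group

/-- The subgroup commuting with `S` modulo `N`. -/
theorem commutator_sup_le {S H K N : Subgroup G}
    (hH : H ≤ Subgroup.normalizer (N : Set G)) (hK : K ≤ Subgroup.normalizer (N : Set G))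
    (h1 : ⁅S, H⁆ ≤ N) (h2 : ⁅S, K⁆ ≤ N) : ⁅S, H ⊔ K⁆ ≤ N := by
  let M : Subgroup G :=
    { carrier := {y | y ∈ Subgroup.normalizer (N : Set G) ∧ ∀ x ∈ S, ⁅x, y⁆ ∈ N}
      one_mem' := ⟨one_mem _, fun x _ => by simp [N.one_mem]⟩
      mul_mem' := fun {a b} ha hb => ⟨mul_mem ha.1 hb.1, fun x hx => by
        rw [show ⁅x, a * b⁆ = ⁅x, a⁆ * (a * ⁅x, b⁆ * a⁻¹) by
          simp only [commutatorElement_def]; group]
        exact N.mul_mem (ha.2 x hx) ((Subgroup.mem_normalizer_iff.mp ha.1 _).mp (hb.2 x hx))⟩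
      inv_mem' := fun {a} ha => ⟨inv_mem ha.1, fun x hx => by
        rw [show ⁅x, a⁻¹⁆ = a⁻¹ * ⁅x, a⁆⁻¹ * a by simp only [commutatorElement_def]; group]
        exact (Subgroup.mem_normalizer_iff''.mp ha.1 _).mp (N.inv_mem (ha.2 x hx))⟩ }
  have hle : H ⊔ K ≤ M := sup_le
    (fun y hy => ⟨hH hy, fun x hx => h1 (Subgroup.commutator_mem_commutator hx hy)⟩)
    (fun y hy => ⟨hK hy, fun x hx => h2 (Subgroup.commutator_mem_commutator hx hy)⟩)
  exact Subgroup.commutator_le.mpr fun x hx y hy => (hle hy).2 x hx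

variable [Finite G] {A Q P S T R : Subgroup G} {p q : ℕ} (h : IsPQ A Q p q)
include h

/-- Two commutators with distinct subgroups of order `p` generate `T`. -/
theorem sup_commutator_eq {P' : Subgroup G} (hP : P ≤ A) (hc : Nat.card P = p) (hP' : P' ≤ A)
    (hc' : Nat.card P' = p) (hne : P ≠ P') (hAT : A ≤ Subgroup.normalizer (T : Set G))
    (hcop : (Nat.card A).Coprime (Nat.card T))
    (hTA : T ⊓ Subgroup.centralizer (A : Set G) = ⊥) : ⁅T, P⁆ ⊔ ⁅T, P'⁆ = T := by
  set N := ⁅T, P⁆ ⊔ ⁅T, P'⁆ with hN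
  have hNT : N ≤ T := sup_le (commutator_le_of_le_normalizer (hP.trans hAT))
    (commutator_le_of_le_normalizer (hP'.trans hAT))
  have hnorm : ∀ X : Subgroup G, ⁅T, X⁆ ≤ N → X ≤ Subgroup.normalizer (N : Set G) := fun X hX => by
    rw [Subgroup.le_normalizer_iff]
    intro x hx n hn
    rw [show x * n * x⁻¹ = ⁅x, n⁆ * n by rw [commutatorElement_def]; group]
    refine N.mul_mem (hX ?_) hn
    rw [Subgroup.commutator_comm]
    exact Subgroup.commutator_mem_commutator hx (hNT hn)
  have hAN : A ≤ Subgroup.normalizer (N : Set G) := by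
    rw [← h.sup_P hP hc hP' hc' hne]
    exact sup_le (hnorm P le_sup_left) (hnorm P' le_sup_right)
  have hAT' : ⁅T, A⁆ ≤ N := by
    conv_lhs => rw [← h.sup_P hP hc hP' hc' hne]
    exact commutator_sup_le (hP.trans hAN) (hP'.trans hAN) le_sup_left le_sup_right
  refine le_antisymm hNT fun τ hτ => ?_
  obtain ⟨c, hc1⟩ := H20.exists_fixed_mem_coset (A := A) (K := T) (N := N) hcop
    (Or.inl h.isSolvable) hNT hAN hτ fun a ha => by
      have := hAT' (Subgroup.commutator_mem_commutator (T.inv_mem hτ) ha)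
      rwa [commutatorElement_def, inv_inv, mul_assoc, mul_assoc, ← mul_assoc a] at this
  have hone : c = 1 := Subgroup.mem_bot.mp (hTA.le ⟨hc1.1.1, hc1.1.2⟩)
  rw [hone, mul_one] at hc1
  exact inv_mem_iff.mp hc1.2

/-- If `[S, [T, P]] ≤ R` then `S` is `R` times the intersection of the other translates of `R`. -/
theorem le_sup_translates (hP : P ≤ A) (hc : Nat.card P = p)
    (hAS : A ≤ Subgroup.normalizer (S : Set G)) (hAT : A ≤ Subgroup.normalizer (T : Set G))
    (hTS : T ≤ Subgroup.normalizer (S : Set G)) (hST : ⁅S, T⁆ = S)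
    (hcop : (Nat.card A).Coprime (Nat.card T))
    (hTA : T ⊓ Subgroup.centralizer (A : Set G) = ⊥) (hRS : R ≤ S)
    (hSR : S ≤ Subgroup.normalizer (R : Set G)) (hTR : T ≤ Subgroup.normalizer (R : Set G))
    (hR : ⁅S, ⁅T, P⁆⁆ ≤ R) :
    ∃ D : Subgroup G, D ≤ S ∧ S ≤ R ⊔ D ∧
      ∀ u ∈ Q, u ≠ 1 → D ≤ MulAut.conj u • R := by
  classical
  let _ := Fintype.ofFinite G
  suffices key : ∀ F : Finset G, (∀ u ∈ F, u ∈ Q ∧ u ≠ 1) →
      S ≤ R ⊔ (S ⊓ ⨅ u ∈ F, MulAut.conj u • R) by
    refine ⟨_, inf_le_left, key (Finset.univ.filter fun u => u ∈ Q ∧ u ≠ 1)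
      (fun u hu => (Finset.mem_filter.mp hu).2), fun u hu hu1 => inf_le_right.trans ?_⟩
    exact iInf₂_le u (Finset.mem_filter.mpr ⟨Finset.mem_univ _, hu, hu1⟩)
  intro F
  induction F using Finset.induction_on with
  | empty => intro _; simp
  | insert u F hu ih =>
    intro hF
    have ih := ih fun v hv => hF v (Finset.mem_insert_of_mem hv)
    obtain ⟨huQ, hu1⟩ := hF u (Finset.mem_insert_self u F)
    set D := S ⊓ ⨅ v ∈ F, MulAut.conj v • R with hD
    set D' := S ⊓ ⨅ v ∈ insert u F, MulAut.conj v • R with hD'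
    have hnorm : ∀ X : Subgroup G, A ≤ Subgroup.normalizer (X : Set G) →
        X ≤ Subgroup.normalizer (S : Set G) → X ≤ Subgroup.normalizer (R : Set G) →
        ∀ F' : Finset G, (∀ v ∈ F', v ∈ Q ∧ v ≠ 1) →
        X ≤ Subgroup.normalizer ((R ⊔ (S ⊓ ⨅ v ∈ F', MulAut.conj v • R) : Subgroup G) : Set G) := by
      intro X hAX hXS hXR F' hF'
      refine H83.le_normalizer_sup hXR (le_normalizer_inf hXS ?_)
      rw [Subgroup.le_normalizer_iff]
      intro x hx r hr
      simp only [Subgroup.mem_iInf] at hr ⊢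
      exact fun v hv => conj_mem_of_le_normalizer
        (le_normalizer_conj_smul (hAX (h.le (hF' v hv).1)) hXR) hx (hr v hv)
    have hTN := hnorm T hAT hTS hTR (insert u F) hF
    set P' := MulAut.conj u • P with hP'def
    have hP'A : P' ≤ A := by
      intro x hx
      rw [mem_conj_smul] at hx
      have huA := h.le huQ
      have := A.mul_mem (A.mul_mem huA (hP hx)) (A.inv_mem huA)
      rwa [show u * (u⁻¹ * x * u) * u⁻¹ = x by group] at this
    have hP'c : Nat.card P' = p := by rw [card_conj_smul, hc]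
    have hne : P ≠ P' := fun e => hu1 (h.eq_one_of_normalizes hP hc huQ
      (mem_normalizer_of_conj_smul_eq e.symm))
    have h1 : ⁅S, ⁅T, P⁆⁆ ≤ R ⊔ D' := hR.trans le_sup_left
    have h2 : ⁅S, ⁅T, P'⁆⁆ ≤ R ⊔ D' := by
      rw [Subgroup.commutator_le]
      intro x hx τ hτ
      have hτT : τ ∈ T := commutator_le_of_le_normalizer (hP'A.trans hAT) hτ
      have hDn : D ≤ Subgroup.normalizer (R : Set G) := inf_le_left.trans hSR
      obtain ⟨ρ, hρ, d, hd, rfl⟩ : x ∈ ((R : Set G) * (D : Set G)) := by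
        rw [← Subgroup.coe_mul_of_right_le_normalizer_left R D hDn]; exact ih hx
      rw [show ⁅ρ * d, τ⁆ = ρ * ⁅d, τ⁆ * ρ⁻¹ * ⁅ρ, τ⁆ by simp only [commutatorElement_def]; group]
      refine mul_mem (mul_mem (mul_mem (le_sup_left (a := R) hρ) (le_sup_right (a := R) ?_))
        (le_sup_left (a := R) (R.inv_mem hρ))) (le_sup_left (a := R) ?_)
      · have hdS : d ∈ S := hd.1
        have hdT : ⁅d, τ⁆ ∈ D := by
          have hTD : T ≤ Subgroup.normalizer (D : Set G) := by
            refine le_normalizer_inf hTS ?_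
            rw [Subgroup.le_normalizer_iff]
            intro x' hx' r hr
            simp only [Subgroup.mem_iInf] at hr ⊢
            exact fun v hv => conj_mem_of_le_normalizer
              (le_normalizer_conj_smul (hAT (h.le (hF v (Finset.mem_insert_of_mem hv)).1)) hTR)
              hx' (hr v hv)
          rw [commutatorElement_def, mul_assoc, mul_assoc, ← mul_assoc τ]
          exact D.mul_mem hd (conj_mem_of_le_normalizer hTD hτT (D.inv_mem hd))
        refine Subgroup.mem_inf.mpr ⟨hdT.1, ?_⟩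
        rw [Finset.iInf_insert, Subgroup.mem_inf]
        refine ⟨?_, hdT.2⟩
        rw [mem_conj_smul]
        have hd' : u⁻¹ * d * u ∈ S := inv_conj_mem_of_le_normalizer hAS (h.le huQ) hdS
        have hτ' : u⁻¹ * τ * u ∈ ⁅T, P⁆ := by
          have hmap : ⁅T, P'⁆ ≤ MulAut.conj u • ⁅T, P⁆ := by
            rw [Subgroup.commutator_le]
            intro a ha b hb
            rw [mem_conj_smul] at hb ⊢
            rw [show u⁻¹ * ⁅a, b⁆ * u = ⁅u⁻¹ * a * u, u⁻¹ * b * u⁆ by
              simp only [commutatorElement_def]; group]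
            exact Subgroup.commutator_mem_commutator
              (inv_conj_mem_of_le_normalizer hAT (h.le huQ) ha) hb
          exact mem_conj_smul.mp (hmap hτ)
        rw [show u⁻¹ * ⁅d, τ⁆ * u = ⁅u⁻¹ * d * u, u⁻¹ * τ * u⁆ by
          simp only [commutatorElement_def]; group]
        exact hR (Subgroup.commutator_mem_commutator hd' hτ')
      · rw [commutatorElement_def, mul_assoc, mul_assoc, ← mul_assoc τ]
        exact R.mul_mem hρ (conj_mem_of_le_normalizer hTR hτT (R.inv_mem hρ))
    calc S = ⁅S, ⁅T, P⁆ ⊔ ⁅T, P'⁆⁆ := by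
          rw [sup_commutator_eq h hP hc hP'A hP'c hne hAT hcop hTA, hST]
      _ ≤ R ⊔ D' := commutator_sup_le
          ((commutator_le_of_le_normalizer (hP.trans hAT)).trans hTN)
          ((commutator_le_of_le_normalizer (hP'A.trans hAT)).trans hTN) h1 h2

/-- A subgroup lying in all other translates of `K` lies in `K` when `P` is trivial modulo `K`. -/
theorem le_of_translates {Z K D : Subgroup G} [IsMulCommutative Z]
    (hP : P ≤ A) (hc : Nat.card P = p) (hAZ : A ≤ Subgroup.normalizer (Z : Set G))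
    (hZA : Z ⊓ Subgroup.centralizer (A : Set G) = ⊥) (hKZ : K ≤ Z)
    (hPK : ∀ z ∈ Z, ∀ x ∈ P, z⁻¹ * (x * z * x⁻¹) ∈ K)
    (hcop : p.Coprime (Nat.card Z)) (hDZ : D ≤ Z)
    (hD : ∀ u ∈ Q, u ≠ 1 → D ≤ MulAut.conj u • K) : D ≤ K := by
  classical
  intro z hz
  let _ := Fintype.ofFinite Q
  let _ := Fintype.ofFinite P
  have hQZ : Q ≤ Subgroup.normalizer (Z : Set G) := h.le.trans hAZ
  have hPZ : P ≤ Subgroup.normalizer (Z : Set G) := hP.trans hAZ
  haveI : (K.subgroupOf Z).Normal := ⟨fun b hb g => by rwa [mul_comm' g b, mul_inv_cancel_right]⟩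
  let π := QuotientGroup.mk' (K.subgroupOf Z)
  set n := ∏ u : Q, conjAut hQZ u ⟨z, hDZ hz⟩ with hn
  have hn1 : π n = π ⟨z, hDZ hz⟩ := by
    rw [hn, map_prod, Fintype.prod_eq_single (1 : Q), map_one, MulAut.one_apply]
    intro u hu
    rw [QuotientGroup.mk'_apply, QuotientGroup.eq_one_iff, Subgroup.mem_subgroupOf, coe_conjAut]
    have hu' : (u : G)⁻¹ ≠ 1 := inv_ne_one.mpr fun e => hu (Subtype.ext e)
    have := mem_conj_smul.mp (hD _ (Q.inv_mem u.2) hu' hz)
    rwa [inv_inv] at this
  set m := ∏ x : P, conjAut hPZ x n with hm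
  have hQn : ∀ u : Q, conjAut hQZ u n = n := fun u => by
    rw [hn, map_prod]
    exact Fintype.prod_equiv (Equiv.mulLeft u) _ _ fun v => by
      rw [Equiv.coe_mulLeft, map_mul, MulAut.mul_apply]
  have hm1 : m = 1 := by
    refine Subtype.ext (Subgroup.mem_bot.mp (hZA.le ⟨m.2, ?_⟩))
    have hle : A ≤ Subgroup.centralizer ({(m : G)} : Set G) := by
      rw [← h.sup_Q hP hc]
      refine sup_le (fun x hx => Subgroup.mem_centralizer_iff.mpr ?_)
        (fun x hx => Subgroup.mem_centralizer_iff.mpr ?_)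
      · intro y hy
        rw [Set.mem_singleton_iff.mp hy]
        have e : conjAut hPZ ⟨x, hx⟩ m = m := by
          rw [hm, map_prod]
          exact Fintype.prod_equiv (Equiv.mulLeft (⟨x, hx⟩ : P)) _ _ fun v => by
            rw [Equiv.coe_mulLeft, map_mul, MulAut.mul_apply]
        have e' := congrArg Subtype.val e
        rw [coe_conjAut] at e'
        exact (mul_inv_eq_iff_eq_mul.mp e').symm
      · intro y hy
        rw [Set.mem_singleton_iff.mp hy]
        have e : conjAut hQZ ⟨x, hx⟩ m = m := by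
          rw [hm, map_prod]
          refine Finset.prod_congr rfl fun v _ => ?_
          have hx' : (v : G)⁻¹ * x * v ∈ Q :=
            inv_conj_mem_of_le_normalizer h.le_normalizer (hP v.2) hx
          conv_rhs => rw [← hQn ⟨_, hx'⟩]
          refine Subtype.ext ?_
          simp only [coe_conjAut]
          group
        have e' := congrArg Subtype.val e
        rw [coe_conjAut] at e'
        exact (mul_inv_eq_iff_eq_mul.mp e').symm
    exact Subgroup.mem_centralizer_iff.mpr fun a ha =>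
      ((Subgroup.mem_centralizer_iff.mp (hle ha)) _ rfl).symm
  have hpow : π n ^ p = 1 := by
    have e : ∀ x : P, π (conjAut hPZ x n) = π n := fun x => by
      rw [eq_comm, QuotientGroup.mk'_apply, QuotientGroup.mk'_apply, QuotientGroup.eq,
        Subgroup.mem_subgroupOf]
      exact hPK n n.2 x x.2
    have e1 := congrArg π hm1
    rw [hm, map_prod π, map_one π, Finset.prod_congr rfl (fun x _ => e x), Finset.prod_const,
      Finset.card_univ, ← Nat.card_eq_fintype_card, hc] at e1
    exact e1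
  have hone : π n = 1 := by
    have hcard : (Nat.card (Z ⧸ K.subgroupOf Z)).Coprime p :=
      hcop.symm.coprime_dvd_left (Subgroup.card_quotient_dvd_card _)
    exact (powCoprime hcard).injective (a₁ := π n) (a₂ := 1) (by simpa [powCoprime] using hpow)
  rw [hn1, QuotientGroup.mk'_apply, QuotientGroup.eq_one_iff] at hone
  exact Subgroup.mem_subgroupOf.mp hone

/-- The fixed points of `Q` in coprime invariant subgroups commute. -/
theorem commute_fixed (hAS : A ≤ Subgroup.normalizer (S : Set G))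
    (hAT : A ≤ Subgroup.normalizer (T : Set G)) (hTS : T ≤ Subgroup.normalizer (S : Set G))
    (hcop : (Nat.card S).Coprime (Nat.card T)) (hSA : S ⊓ Subgroup.centralizer (A : Set G) = ⊥)
    (hTA : T ⊓ Subgroup.centralizer (A : Set G) = ⊥) {x y : G} (hx : x ∈ S) (hy : y ∈ T)
    (hxQ : x ∈ Subgroup.centralizer (Q : Set G)) (hyQ : y ∈ Subgroup.centralizer (Q : Set G)) :
    x * y = y * x := by
  obtain ⟨P, hP, hc⟩ := h.exists_P
  haveI := Fact.mk h.hp
  set X := S ⊓ Subgroup.centralizer (Q : Set G)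
  set Y := T ⊓ Subgroup.centralizer (Q : Set G)
  have hAQ := le_normalizer_centralizer h.le_normalizer
  have hAX : A ≤ Subgroup.normalizer (X : Set G) := le_normalizer_inf hAS hAQ
  have hAY : A ≤ Subgroup.normalizer (Y : Set G) := le_normalizer_inf hAT hAQ
  have hYX : Y ≤ Subgroup.normalizer (X : Set G) :=
    le_normalizer_inf (inf_le_left.trans hTS) (inf_le_right.trans Subgroup.le_normalizer)
  set L := X ⊔ Y with hL
  have hPL : P ≤ Subgroup.normalizer (L : Set G) :=
    H83.le_normalizer_sup (hP.trans hAX) (hP.trans hAY)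
  obtain ⟨⟨π, hπ⟩, hgen⟩ := (isCyclic_of_prime_card hc).exists_generator
  have hfix : ∀ k : L, conjAut hPL ⟨π, hπ⟩ k = k → k = 1 := by
    intro k hk
    obtain ⟨a, ha, b, hb, hab⟩ : (k : G) ∈ ((X : Set G) * (Y : Set G)) := by
      rw [← Subgroup.coe_mul_of_right_le_normalizer_left X Y hYX]; exact k.2
    have hab' : (k : G) = a * b := hab.symm
    have hk' := congrArg Subtype.val hk
    rw [coe_conjAut, hab', show π * (a * b) * π⁻¹ = (π * a * π⁻¹) * (π * b * π⁻¹) by group] at hk'
    have h1 : a⁻¹ * (π * a * π⁻¹) = b * (π * b * π⁻¹)⁻¹ := by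
      rw [eq_mul_inv_iff_mul_eq, mul_assoc, hk', inv_mul_cancel_left]
    have haS := conj_mem_of_le_normalizer hAS (hP hπ) ha.1
    have hbT := conj_mem_of_le_normalizer hAT (hP hπ) hb.1
    have h2 := eq_one_of_mem_of_coprime hcop (S.mul_mem (S.inv_mem ha.1) haS)
      (h1 ▸ T.mul_mem hb.1 (T.inv_mem hbT))
    have hcent : ∀ (U : Subgroup G) (g : G), U ⊓ Subgroup.centralizer (A : Set G) = ⊥ →
        g ∈ U → g ∈ Subgroup.centralizer (Q : Set G) → π * g * π⁻¹ = g → g = 1 := by
      intro U g hU hgU hgQ hgπ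
      refine Subgroup.mem_bot.mp (hU.le ⟨hgU, ?_⟩)
      have hle : A ≤ Subgroup.centralizer ({g} : Set G) := by
        rw [← h.sup_Q hP hc]
        refine sup_le (fun z hz => ?_) (fun z hz => Subgroup.mem_centralizer_iff.mpr ?_)
        · have hπC : π ∈ Subgroup.centralizer ({g} : Set G) := Subgroup.mem_centralizer_iff.mpr
            fun w hw => by
              rw [Set.mem_singleton_iff.mp hw]
              exact (mul_inv_eq_iff_eq_mul.mp hgπ).symm
          obtain ⟨i, hi⟩ := Subgroup.mem_zpowers_iff.mp (hgen ⟨z, hz⟩)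
          rw [show z = π ^ i from (congrArg Subtype.val hi).symm]
          exact zpow_mem hπC i
        · intro w hw
          rw [Set.mem_singleton_iff.mp hw]
          exact (Subgroup.mem_centralizer_iff.mp hgQ z hz).symm
      exact Subgroup.mem_centralizer_iff.mpr fun z hz =>
        ((Subgroup.mem_centralizer_iff.mp (hle hz)) _ rfl).symm
    have ha1 : a = 1 := hcent S a hSA ha.1 ha.2 (inv_mul_eq_one.mp h2).symm
    have hb1 : b = 1 := by
      rw [h1, mul_inv_eq_one] at h2
      exact hcent T b hTA hb.1 hb.2 h2.symm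
    exact Subtype.ext (by rw [hab', ha1, hb1, mul_one]; rfl)
  haveI : Group.IsNilpotent L := H21.isNilpotent_of_fpf_action (conjAut hPL)
    h.hp (a := ⟨π, hπ⟩) (by rw [← hc]; exact pow_card_eq_one') hfix
  have hxL : x ∈ L := le_sup_left (a := X) ⟨hx, hxQ⟩
  have hyL : y ∈ L := le_sup_right (a := X) ⟨hy, hyQ⟩
  have hco : (orderOf (⟨x, hxL⟩ : L)).Coprime (orderOf (⟨y, hyL⟩ : L)) := by
    rw [← Subgroup.orderOf_coe, ← Subgroup.orderOf_coe]
    exact (hcop.coprime_dvd_left (Subgroup.orderOf_dvd_natCard S hx)).coprime_dvd_right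
      (Subgroup.orderOf_dvd_natCard T hy)
  exact congrArg Subtype.val (H21.commute_of_coprime_of_nilpotent hco).eq

end Cfsg.Agent.H90.PQ
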