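import Cfsg.Agent.H90.PQ.Exception
import Cfsg.Agent.H90.PQ.Iteration

/-! The case of a class two group `S`. -/

set_option autoImplicit false
open scoped Pointwise commutatorElement IsMulCommutative

namespace Cfsg.Agent.H90.PQ

open Cfsg.Agent.H20

variable {G : Type*} [Group G]

/-- If `X` is trivial on `S` modulo `C` then so is `[T, X]`. -/
theorem commutator_commutator_le {S T X C : Subgroup G} (hTS : T ≤ Subgroup.normalizer (S : Set G))
    (hTC : T ≤ Subgroup.normalizer (C : Set G)) (hXC : X ≤ Subgroup.normalizer (C : Set G))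
    (h : ⁅S, X⁆ ≤ C) : ⁅S, ⁅T, X⁆⁆ ≤ C := by
  let M : Subgroup G :=
    { carrier := {g | g ∈ Subgroup.normalizer (C : Set G) ∧ ∀ x ∈ S, ⁅x, g⁆ ∈ C}
      one_mem' := ⟨one_mem _, fun x _ => by simp [C.one_mem]⟩
      mul_mem' := fun {a b} ha hb => ⟨mul_mem ha.1 hb.1, fun x hx => by
        rw [show ⁅x, a * b⁆ = ⁅x, a⁆ * (a * ⁅x, b⁆ * a⁻¹) by
          simp only [commutatorElement_def]; group]
        exact C.mul_mem (ha.2 x hx) ((Subgroup.mem_normalizer_iff.mp ha.1 _).mp (hb.2 x hx))⟩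
      inv_mem' := fun {a} ha => ⟨inv_mem ha.1, fun x hx => by
        rw [show ⁅x, a⁻¹⁆ = a⁻¹ * ⁅x, a⁆⁻¹ * a by simp only [commutatorElement_def]; group]
        exact (Subgroup.mem_normalizer_iff''.mp ha.1 _).mp (C.inv_mem (ha.2 x hx))⟩ }
  refine Subgroup.commutator_le.mpr fun x hx g hg => ?_
  have hle : ⁅T, X⁆ ≤ M := Subgroup.commutator_le.mpr fun τ hτ y hy => by
    have hy' : y ∈ M := ⟨hXC hy, fun z hz => h (Subgroup.commutator_mem_commutator hz hy)⟩
    have hτy : τ * y * τ⁻¹ ∈ M :=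
      ⟨mul_mem (mul_mem (hTC hτ) (hXC hy)) (inv_mem (hTC hτ)), fun z hz => by
        have := conj_mem_of_le_normalizer hTC hτ
          (hy'.2 _ (inv_conj_mem_of_le_normalizer hTS hτ hz))
        rwa [show τ * ⁅τ⁻¹ * z * τ, y⁆ * τ⁻¹ = ⁅z, τ * y * τ⁻¹⁆ by
          simp only [commutatorElement_def]; group] at this⟩
    rw [show ⁅τ, y⁆ = τ * y * τ⁻¹ * y⁻¹ by rw [commutatorElement_def]]
    exact M.mul_mem hτy (M.inv_mem hy')
  exact (hle hg).2 x hx

variable [Finite G]

/-- No group of order `pq` acts without fixed points when `S` has class two. -/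
theorem nonabelian_contra {A Q V S T : Subgroup G} {p q r s t : ℕ}
    (h : IsPQ A Q p q) (hr : r.Prime) (hs : s.Prime) (ht : t.Prime) (hrs : r ≠ s) (hst : s ≠ t)
    (hV : Cfsg.IsElementaryAbelian r V) (hS : IsPGroup s S) (hT : IsPGroup t T)
    (hAV : A ≤ Subgroup.normalizer (V : Set G)) (hSV : S ≤ Subgroup.normalizer (V : Set G))
    (hTV : T ≤ Subgroup.normalizer (V : Set G))
    (hAS : A ≤ Subgroup.normalizer (S : Set G)) (hAT : A ≤ Subgroup.normalizer (T : Set G))
    (hTS : T ≤ Subgroup.normalizer (S : Set G))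
    (hCV : V ⊓ Subgroup.centralizer (A : Set G) = ⊥)
    (hSA : S ⊓ Subgroup.centralizer (A : Set G) = ⊥)
    (hTA : T ⊓ Subgroup.centralizer (A : Set G) = ⊥)
    (hexp : ∀ z ∈ ⁅S, S⁆, z ^ s = 1) (hcen : ⁅S, S⁆ ≤ Subgroup.centralizer (S : Set G))
    (hTZ : T ≤ Subgroup.centralizer ((⁅S, S⁆ : Subgroup G) : Set G))
    (hTT : ⁅T, T⁆ ≤ Subgroup.centralizer (S : Set G))
    (hCZ : V ⊓ Subgroup.centralizer ((⁅S, S⁆ : Subgroup G) : Set G) = ⊥) (hVne : V ≠ ⊥)
    (hST : ⁅S, T⁆ = S)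
    (hrA : r.Coprime (p * q)) (hsA : s.Coprime (p * q)) (htA : t.Coprime (p * q)) : False := by
  classical
  haveI := hV.1
  haveI := Fact.mk hs
  haveI := Fact.mk ht
  haveI := Fact.mk h.hp
  haveI := Fact.mk h.hq
  set Z := ⁅S, S⁆ with hZ
  have hZS : Z ≤ S := commutator_le_of_le_normalizer Subgroup.le_normalizer
  haveI : IsMulCommutative Z :=
    ⟨⟨fun a b => Subtype.ext (Subgroup.mem_centralizer_iff.mp (hcen a.2) _ (hZS b.2)).symm⟩⟩
  have hAZ : A ≤ Subgroup.normalizer (Z : Set G) := H83.le_normalizer_commutator hAS hAS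
  have hcopAS : (Nat.card A).Coprime (Nat.card S) := by
    obtain ⟨m, hm⟩ := IsPGroup.iff_card.mp hS
    rw [h.card_A, hm]
    exact (hsA.symm).pow_right m
  have hcopAT : (Nat.card A).Coprime (Nat.card T) := by
    obtain ⟨m, hm⟩ := IsPGroup.iff_card.mp hT
    rw [h.card_A, hm]
    exact (htA.symm).pow_right m
  have hcopST : (Nat.card S).Coprime (Nat.card T) := by
    obtain ⟨m, hm⟩ := IsPGroup.iff_card.mp hT
    obtain ⟨m', hm'⟩ := IsPGroup.iff_card.mp hS
    rw [hm, hm']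
    exact ((Nat.coprime_primes hs ht).mpr hst).pow m' m
  have hcopZV : (Nat.card Z).Coprime (Nat.card V) := by
    haveI := Fact.mk hr
    obtain ⟨m, hm⟩ := IsPGroup.iff_card.mp (hS.to_le hZS)
    obtain ⟨m', hm'⟩ := IsPGroup.iff_card.mp
      (show IsPGroup r V from fun v => ⟨1, Subtype.ext (by simpa using hV.2 v v.2)⟩)
    rw [hm, hm']
    exact ((Nat.coprime_primes hs hr).mpr (Ne.symm hrs)).pow m m'
  have hpA : p ∣ Nat.card A := h.card_A ▸ dvd_mul_right p q
  have hqA : q ∣ Nat.card A := h.card_A ▸ dvd_mul_left q p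
  have hpZ : p.Coprime (Nat.card Z) :=
    (hcopAS.coprime_dvd_left hpA).coprime_dvd_right (Subgroup.card_dvd_of_le hZS)
  have hqZ : q.Coprime (Nat.card Z) :=
    (hcopAS.coprime_dvd_left hqA).coprime_dvd_right (Subgroup.card_dvd_of_le hZS)
  have hsp : s ≠ p := (Nat.coprime_primes hs h.hp).mp hsA.coprime_mul_right_right
  have hsq : s ≠ q := (Nat.coprime_primes hs h.hq).mp hsA.coprime_mul_left_right
  have hrp : r ≠ p := (Nat.coprime_primes hr h.hp).mp hrA.coprime_mul_right_right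
  have hrq : r ≠ q := (Nat.coprime_primes hr h.hq).mp hrA.coprime_mul_left_right
  have htp : t ≠ p := (Nat.coprime_primes ht h.hp).mp htA.coprime_mul_right_right
  have hZA : Z ⊓ Subgroup.centralizer (A : Set G) = ⊥ :=
    eq_bot_iff.mpr ((inf_le_inf_right _ hZS).trans hSA.le)
  have hZV : Z ≤ Subgroup.normalizer (V : Set G) := hZS.trans hSV
  obtain ⟨K, hKZ, hKs, hW0⟩ := exists_hyperplane hs hexp hZV hcopZV hCZ hVne
  set W := V ⊓ Subgroup.centralizer (K : Set G) with hW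
  have hWel : Cfsg.IsElementaryAbelian r W :=
    ⟨⟨⟨fun a b => Subtype.ext (congrArg Subtype.val
      (mul_comm' (⟨a, a.2.1⟩ : V) ⟨b, b.2.1⟩) :)⟩⟩, fun a ha => hV.2 a ha.1⟩
  have hnW : ∀ X : Subgroup G, X ≤ Subgroup.normalizer (V : Set G) →
      X ≤ Subgroup.normalizer (K : Set G) → X ≤ Subgroup.normalizer (W : Set G) :=
    fun X h1 h2 => le_normalizer_inf h1 (le_normalizer_centralizer h2)
  have hSK : S ≤ Subgroup.normalizer (K : Set G) := le_normalizer_of_le_centralizer fun x hx =>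
    Subgroup.mem_centralizer_iff.mpr fun k hk =>
      (Subgroup.mem_centralizer_iff.mp (hcen (hKZ hk)) x hx).symm
  have hTK : T ≤ Subgroup.normalizer (K : Set G) := le_normalizer_of_le_centralizer fun x hx =>
    Subgroup.mem_centralizer_iff.mpr fun k hk => Subgroup.mem_centralizer_iff.mp (hTZ hx) k (hKZ hk)
  set C := S ⊓ Subgroup.centralizer (W : Set G) with hC
  have hnC : ∀ X : Subgroup G, X ≤ Subgroup.normalizer (V : Set G) →
      X ≤ Subgroup.normalizer (S : Set G) →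
      X ≤ Subgroup.normalizer (K : Set G) → X ≤ Subgroup.normalizer (C : Set G) :=
    fun X h1 h2 h3 => le_normalizer_inf h2 (le_normalizer_centralizer (hnW X h1 h3))
  have hSC : S ≤ Subgroup.normalizer (C : Set G) := hnC S hSV Subgroup.le_normalizer hSK
  have hTC : T ≤ Subgroup.normalizer (C : Set G) := hnC T hTV hTS hTK
  have hKC : K ≤ Subgroup.centralizer (W : Set G) := fun k hk =>
    Subgroup.mem_centralizer_iff.mpr fun w hw =>
      (Subgroup.mem_centralizer_iff.mp hw.2 k hk).symm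
  have hK : K = Z ⊓ Subgroup.centralizer (W : Set G) := by
    rcases eq_of_relIndex_prime hs hKs (le_inf hKZ hKC) inf_le_left with e | e
    · exact e.symm
    · refine absurd (eq_bot_iff.mpr fun w hw => hCZ.le ⟨hw.1, ?_⟩) hW0
      exact Subgroup.mem_centralizer_iff.mpr fun z hz =>
        ((Subgroup.mem_centralizer_iff.mp (e.ge hz).2) w hw).symm
  have hnZ : ¬ Z ≤ K := fun hle => hs.ne_one (hKs.symm.trans (Subgroup.relIndex_eq_one.mpr hle))
  rcases hyperplane_cases h hs hexp hAV hAZ hZV hCZ hCV hZA hcopZV hpZ hqZ hKZ hKs hW0 with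
    ⟨hQK, hQreg⟩ | ⟨P, hP, hPc, hPK, hPreg⟩
  · -- `Q` normalises the hyperplane
    have hQV : Q ≤ Subgroup.normalizer (V : Set G) := h.le.trans hAV
    have hQS : Q ≤ Subgroup.normalizer (S : Set G) := h.le.trans hAS
    have hQT : Q ≤ Subgroup.normalizer (T : Set G) := h.le.trans hAT
    have hQC : Q ≤ Subgroup.normalizer (C : Set G) := hnC Q hQV hQS hQK
    have hQs : Group.IsSolvable Q := by
      haveI := isCyclic_of_prime_card h.card_Q
      exact Group.isSolvable_of_comm fun a b => mul_comm' a b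
    have h1 : ⁅Q, S⁆ ≤ Subgroup.centralizer (W : Set G) :=
      commutator_le_centralizer_of_no_exception hr hs h.hq hrs hrq hsq h.card_Q hS hQS hWel
        (hnW Q hQV hQK) (hnW S hSV hSK) hQreg fun hs2 hf =>
        absurd hf (h.not_fermat fun hp2 => hsp (hs2.trans hp2.symm))
    have hSQ : ⁅S, Q⁆ ≤ C :=
      le_inf (commutator_le_of_le_normalizer hQS) (by rwa [Subgroup.commutator_comm])
    have h2 : ⁅S, ⁅T, Q⁆⁆ ≤ C := commutator_commutator_le hTS hTC hQC hSQ
    have hdS := commutator_sup_centralizer hQS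
      (hcopAS.coprime_dvd_left (Subgroup.card_dvd_of_le h.le)) (Or.inl hQs)
    have hdT := commutator_sup_centralizer hQT
      (hcopAT.coprime_dvd_left (Subgroup.card_dvd_of_le h.le)) (Or.inl hQs)
    have h3 : ⁅S, T ⊓ Subgroup.centralizer (Q : Set G)⁆ ≤ C := by
      rw [Subgroup.commutator_comm]
      conv_lhs => rw [← hdS]
      refine commutator_sup_le ((commutator_le_of_le_normalizer hQS).trans hSC)
        (inf_le_left.trans hSC) ?_ ?_
      · rw [Subgroup.commutator_comm]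
        refine (Subgroup.commutator_mono hSQ inf_le_left).trans
          (commutator_le_of_le_normalizer hTC)
      · refine Subgroup.commutator_le.mpr fun y hy x hx => ?_
        rw [commutatorElement_eq_one_iff_mul_comm.mpr
          (commute_fixed h hAS hAT hTS hcopST hSA hTA hx.1 hy.1 hx.2 hy.2).symm]
        exact C.one_mem
    have h4 : ⁅S, T⁆ ≤ C := by
      conv_lhs => rw [← hdT]
      exact commutator_sup_le ((commutator_le_of_le_normalizer hQT).trans hTC)
        (inf_le_left.trans hTC) h2 h3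
    rw [hST] at h4
    exact hnZ fun z hz => hK.ge ⟨hz, (h4 (hZS hz)).2⟩
  · -- a subgroup of order `p` normalises it
    have hPV : P ≤ Subgroup.normalizer (V : Set G) := hP.trans hAV
    have hPS : P ≤ Subgroup.normalizer (S : Set G) := hP.trans hAS
    have hPC : P ≤ Subgroup.normalizer (C : Set G) := hnC P hPV hPS hPK
    have hcz : ∀ a b x : G, a ∈ S → b ∈ S → x ∈ S → x * ⁅a, b⁆ * x⁻¹ = ⁅a, b⁆ :=
      fun a b x ha hb hx => by
        rw [Subgroup.mem_centralizer_iff.mp (hcen (Subgroup.commutator_mem_commutator ha hb)) x hx,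
          mul_inv_cancel_right]
    have hmull : ∀ a b y : G, a ∈ S → b ∈ S → y ∈ S → ⁅a * b, y⁆ = ⁅b, y⁆ * ⁅a, y⁆ :=
      fun a b y ha hb hy => by
        rw [show ⁅a * b, y⁆ = a * ⁅b, y⁆ * a⁻¹ * ⁅a, y⁆ by
          simp only [commutatorElement_def]; group, hcz b y a hb hy ha]
    have hmulr : ∀ a b y : G, a ∈ S → b ∈ S → y ∈ S → ⁅y, a * b⁆ = ⁅y, a⁆ * ⁅y, b⁆ :=
      fun a b y ha hb hy => by
        rw [show ⁅y, a * b⁆ = ⁅y, a⁆ * (a * ⁅y, b⁆ * a⁻¹) by
          simp only [commutatorElement_def]; group, hcz y b a hy hb ha]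
    let R : Subgroup G :=
      { carrier := {x | x ∈ S ∧ ∀ y ∈ S, ⁅x, y⁆ ∈ Subgroup.centralizer (W : Set G)}
        one_mem' := ⟨one_mem S, fun y _ => by simp [one_mem]⟩
        mul_mem' := fun {a b} ha hb => ⟨mul_mem ha.1 hb.1, fun y hy => by
          rw [hmull a b y ha.1 hb.1 hy]; exact mul_mem (hb.2 y hy) (ha.2 y hy)⟩
        inv_mem' := fun {a} ha => ⟨inv_mem ha.1, fun y hy => by
          have e := hmull a⁻¹ a y (inv_mem ha.1) ha.1 hy
          rw [inv_mul_cancel, commutatorElement_one_left, eq_comm, mul_eq_one_iff_inv_eq] at e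
          rw [← e]
          exact inv_mem (ha.2 y hy)⟩ }
    have hR : ∀ x, x ∈ R ↔ x ∈ S ∧ ∀ y ∈ S, ⁅x, y⁆ ∈ Subgroup.centralizer (W : Set G) :=
      fun x => Iff.rfl
    have hRS : R ≤ S := fun x hx => hx.1
    have hCR : C ≤ R := fun x hx => ⟨hx.1, fun y hy => by
      rw [commutatorElement_def, mul_assoc, mul_assoc, ← mul_assoc y]
      exact mul_mem hx.2
        (conj_mem_of_le_normalizer (le_normalizer_centralizer (hnW S hSV hSK)) hy (inv_mem hx.2))⟩
    have hnR : ∀ X : Subgroup G, X ≤ Subgroup.normalizer (S : Set G) →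
        X ≤ Subgroup.centralizer (Z : Set G) → X ≤ Subgroup.normalizer (R : Set G) := by
      intro X hXS hXZ
      rw [Subgroup.le_normalizer_iff]
      intro g hg x hx
      refine ⟨conj_mem_of_le_normalizer hXS hg hx.1, fun y hy => ?_⟩
      have hy' := inv_conj_mem_of_le_normalizer hXS hg hy
      have := hx.2 _ hy'
      rwa [show ⁅g * x * g⁻¹, y⁆ = g * ⁅x, g⁻¹ * y * g⁆ * g⁻¹ by
          simp only [commutatorElement_def]; group,
        ← Subgroup.mem_centralizer_iff.mp (hXZ hg) _ (Subgroup.commutator_mem_commutator hx.1 hy'),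
        mul_inv_cancel_right]
    have hSR : S ≤ Subgroup.normalizer (R : Set G) := hnR S Subgroup.le_normalizer fun x hx =>
      Subgroup.mem_centralizer_iff.mpr fun z hz =>
        (Subgroup.mem_centralizer_iff.mp (hcen hz) x hx).symm
    have hTR : T ≤ Subgroup.normalizer (R : Set G) := hnR T hTS hTZ
    have hPZ : P ≤ Subgroup.normalizer (Z : Set G) := hP.trans hAZ
    obtain ⟨hSTP, hPK'⟩ : ⁅S, ⁅T, P⁆⁆ ≤ R ∧ ∀ z ∈ Z, ∀ x ∈ P, z⁻¹ * (x * z * x⁻¹) ∈ K := by
      by_cases hexc : s = 2 ∧ ∃ n : ℕ, p = 2 ^ n + 1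
      · obtain ⟨rfl, -⟩ := hexc
        refine ⟨commutator_le_radical h.hp (Ne.symm hsp) hr hrs hrp hWel hS hT htp ht (Ne.symm hst)
          hPc (hnW P hPV hPK) (hnW S hSV hSK) hPS (hP.trans hAT) hTS hPreg hZS hcen hTZ le_rfl hexp
          hTT hK hKs hPZ hR, fun z hz x hx => ?_⟩
        have hzx := conj_mem_of_le_normalizer hPZ hx hz
        have hidx : (K.subgroupOf Z).index = 2 := hKs
        refine Subgroup.mem_subgroupOf.mp ((Subgroup.mul_mem_iff_of_index_two hidx
          (a := ⟨z⁻¹, Z.inv_mem hz⟩) (b := ⟨x * z * x⁻¹, hzx⟩)).mpr ?_)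
        rw [Subgroup.mem_subgroupOf, Subgroup.mem_subgroupOf]
        exact ⟨fun hk => conj_mem_of_le_normalizer hPK hx (inv_mem_iff.mp hk),
          fun hk => inv_mem ((Subgroup.mem_normalizer_iff.mp (hPK hx) z).mpr hk)⟩
      · have h1 : ⁅P, S⁆ ≤ Subgroup.centralizer (W : Set G) :=
          commutator_le_centralizer_of_no_exception hr hs h.hp hrs hrp hsp hPc hS hPS hWel
            (hnW P hPV hPK) (hnW S hSV hSK) hPreg fun hs2 hf => absurd ⟨hs2, hf⟩ hexc
        have hSP : ⁅S, P⁆ ≤ C :=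
          le_inf (commutator_le_of_le_normalizer hPS) (by rwa [Subgroup.commutator_comm])
        refine ⟨(commutator_commutator_le hTS hTC hPC hSP).trans hCR, fun z hz x hx => hK.ge
          ⟨Z.mul_mem (Z.inv_mem hz) (conj_mem_of_le_normalizer hPZ hx hz), ?_⟩⟩
        have := (hSP (Subgroup.commutator_mem_commutator (S.inv_mem (hZS hz)) hx)).2
        rwa [commutatorElement_def, inv_inv, mul_assoc (z⁻¹ * x), mul_assoc z⁻¹, ← mul_assoc x]
          at this
    obtain ⟨D, hDS, hSD, hDu⟩ :=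
      le_sup_translates h hP hPc hAS hAT hTS hST hcopAT hTA hRS hSR hTR hSTP
    let D0 : Subgroup G :=
      { carrier := {z | z ∈ Z ∧ ∀ u ∈ Q, u ≠ 1 → z ∈ MulAut.conj u • K}
        one_mem' := ⟨one_mem Z, fun u _ _ => one_mem _⟩
        mul_mem' := fun {a b} ha hb =>
          ⟨mul_mem ha.1 hb.1, fun u hu hu1 => mul_mem (ha.2 u hu hu1) (hb.2 u hu hu1)⟩
        inv_mem' := fun {a} ha => ⟨inv_mem ha.1, fun u hu hu1 => inv_mem (ha.2 u hu hu1)⟩ }
    have hD0 : D0 ≤ K := le_of_translates h hP hPc hAZ hZA hKZ hPK' hpZ (fun z hz => hz.1)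
      fun u hu hu1 z hz => hz.2 u hu hu1
    have hRK : ∀ ρ ∈ R, ∀ y ∈ S, ⁅ρ, y⁆ ∈ K := fun ρ hρ y hy =>
      hK.ge ⟨Subgroup.commutator_mem_commutator hρ.1 hy, hρ.2 y hy⟩
    refine hnZ ?_
    refine le_trans (Subgroup.commutator_le.mpr fun x hx y hy => ?_ : Z ≤ K ⊔ D0)
      (sup_le le_rfl hD0)
    have hprod : ∀ x ∈ S, ∃ ρ ∈ R, ∃ d ∈ D, x = ρ * d := by
      intro x hx
      have hx' := hSD hx
      rw [← SetLike.mem_coe, Subgroup.coe_mul_of_right_le_normalizer_left R D (hDS.trans hSR)] at hx'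
      obtain ⟨ρ, hρ, d, hd, e⟩ := hx'
      exact ⟨ρ, hρ, d, hd, e.symm⟩
    obtain ⟨ρ, hρ, d, hd, rfl⟩ := hprod x hx
    obtain ⟨ρ', hρ', d', hd', rfl⟩ := hprod y hy
    rw [hmull ρ d _ hρ.1 (hDS hd) hy, hmulr ρ' d' d hρ'.1 (hDS hd') (hDS hd)]
    refine mul_mem (mul_mem (Subgroup.mem_sup_left ?_) (Subgroup.mem_sup_right ?_))
      (Subgroup.mem_sup_left (hRK ρ hρ _ hy))
    · rw [← commutatorElement_inv]
      exact inv_mem (hRK ρ' hρ' d (hDS hd))
    · refine ⟨Subgroup.commutator_mem_commutator (hDS hd) (hDS hd'), fun u hu hu1 => ?_⟩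
      rw [mem_conj_smul, show u⁻¹ * ⁅d, d'⁆ * u = ⁅u⁻¹ * d * u, u⁻¹ * d' * u⁆ by
        simp only [commutatorElement_def]; group]
      exact hRK _ (mem_conj_smul.mp (hDu u hu hu1 hd)) _
        (inv_conj_mem_of_le_normalizer (h.le.trans hAS) hu (hDS hd'))

end Cfsg.Agent.H90.PQ
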