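import Cfsg.Agent.H90.PQ.AbelianCase
import Cfsg.Agent.H90.PQ.NonabelianCase
import Cfsg.Agent.H20.Abelian

/-! Coprime invariant subgroups of a group acted on without fixed points by a group of order `pq`
commute on a faithful module. -/

set_option autoImplicit false
open scoped Pointwise commutatorElement IsMulCommutative

namespace Cfsg.Agent.H90.PQ

open Cfsg.Agent.H20

variable {G : Type*} [Group G] [Finite G]

/-- The key lemma. -/
theorem commutator_eq_bot {A Q V : Subgroup G} {p q r s t : ℕ}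
    (h : IsPQ A Q p q) (hr : r.Prime) (hs : s.Prime) (ht : t.Prime) (hrs : r ≠ s) (hst : s ≠ t)
    (hV : Cfsg.IsElementaryAbelian r V) (hAV : A ≤ Subgroup.normalizer (V : Set G))
    (hCV : V ⊓ Subgroup.centralizer (A : Set G) = ⊥)
    (hrA : r.Coprime (p * q)) (hsA : s.Coprime (p * q)) (htA : t.Coprime (p * q)) :
    ∀ (n : ℕ) (S T : Subgroup G), Nat.card S + Nat.card T = n →
      IsPGroup s S → IsPGroup t T →
      A ≤ Subgroup.normalizer (S : Set G) → A ≤ Subgroup.normalizer (T : Set G) →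
      T ≤ Subgroup.normalizer (S : Set G) →
      S ≤ Subgroup.normalizer (V : Set G) → T ≤ Subgroup.normalizer (V : Set G) →
      S ⊓ Subgroup.centralizer (A : Set G) = ⊥ → T ⊓ Subgroup.centralizer (A : Set G) = ⊥ →
      S ⊓ Subgroup.centralizer (V : Set G) = ⊥ → ⁅S, T⁆ = ⊥ := by
  intro n
  induction n using Nat.strong_induction_on with
  | _ n IH =>
  intro S T hn hS hT hAS hAT hTS hSV hTV hSA hTA hSC
  by_contra hne
  haveI := Fact.mk hs
  haveI := Fact.mk ht
  haveI := Fact.mk hr
  haveI := hV.1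
  have hT0 : T ≠ ⊥ := fun e => hne (by rw [e, Subgroup.commutator_bot_right])
  -- `[T, T]` centralises `S`
  have hTT : ⁅T, T⁆ ≤ Subgroup.centralizer (S : Set G) := by
    have hle : ⁅T, T⁆ ≤ T := commutator_le_of_le_normalizer Subgroup.le_normalizer
    have hlt : ⁅T, T⁆ < T := by
      haveI := (Subgroup.nontrivial_iff_ne_bot T).mpr hT0
      haveI : Group.IsSolvable T := isSolvable_of_isPGroup hT
      refine hle.lt_of_ne fun e => (IsSolvable.commutator_lt_top_of_nontrivial T).ne ?_
      refine Subgroup.map_injective T.subtype_injective ?_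
      rw [Subgroup.map_subtype_commutator, e, ← MonoidHom.range_eq_map, Subgroup.range_subtype]
    refine le_centralizer_of_commutator_eq_bot
      (IH _ (hn ▸ Nat.add_lt_add_left ?_ _) S ⁅T, T⁆ rfl hS (hT.to_le hle) hAS
        (H83.le_normalizer_commutator hAT hAT) (hle.trans hTS) hSV (hle.trans hTV) hSA
        (eq_bot_iff.mpr ((inf_le_inf_right _ hle).trans hTA.le)) hSC)
    refine lt_of_le_of_ne (Subgroup.card_le_of_le hle) fun e => hlt.ne ?_
    exact Subgroup.eq_of_le_of_card_ge hle e.ge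
  have hcopTs : (Nat.card T).Coprime s := by
    obtain ⟨m, hm⟩ := IsPGroup.iff_card.mp hT
    rw [hm]
    exact ((Nat.coprime_primes ht hs).mpr (Ne.symm hst)).pow_left m
  obtain ⟨hST, hS0, -, -, hTF, hSF, hSSF, hform, -, -, -⟩ :=
    H83.minimal_action (p := s) (T ⊔ A) T S hS (sup_le hTS hAS) le_sup_left
      (sup_le Subgroup.le_normalizer hAT) hcopTs hne (fun U hU hBU => by
        refine IH _ ?_ U T rfl (hS.to_le hU.le) hT (le_sup_right.trans hBU) hAT
          (le_sup_left.trans hBU) (hU.le.trans hSV) hTV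
          (eq_bot_iff.mpr ((inf_le_inf_right _ hU.le).trans hSA.le)) hTA
          (eq_bot_iff.mpr ((inf_le_inf_right _ hU.le).trans hSC.le))
        rw [← hn]
        refine Nat.add_lt_add_right (lt_of_le_of_ne (Subgroup.card_le_of_le hU.le) fun e => ?_) _
        exact hU.ne (Subgroup.eq_of_le_of_card_ge hU.le e.ge))
  set F := (frattini S).map S.subtype
  have hcopST : (Nat.card S).Coprime (Nat.card T) := by
    obtain ⟨m, hm⟩ := IsPGroup.iff_card.mp hS
    rw [hm]
    exact (hcopTs.symm).pow_left m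
  have hcopSV : (Nat.card S).Coprime (Nat.card V) := by
    obtain ⟨m, hm⟩ := IsPGroup.iff_card.mp hS
    obtain ⟨m', hm'⟩ := IsPGroup.iff_card.mp
      (show IsPGroup r V from fun v => ⟨1, Subtype.ext (by simpa using hV.2 v v.2)⟩)
    rw [hm, hm']
    exact ((Nat.coprime_primes hs hr).mpr (Ne.symm hrs)).pow m m'
  -- restriction to a submodule where a subgroup of `S` has no fixed points
  have hsub : ∀ Z : Subgroup G, Z ≤ S → Z ≠ ⊥ → A ≤ Subgroup.normalizer (Z : Set G) →
      S ≤ Subgroup.normalizer (Z : Set G) → T ≤ Subgroup.normalizer (Z : Set G) →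
      ∃ V1 : Subgroup G, Cfsg.IsElementaryAbelian r V1 ∧ V1 ≤ V ∧
        A ≤ Subgroup.normalizer (V1 : Set G) ∧ S ≤ Subgroup.normalizer (V1 : Set G) ∧
        T ≤ Subgroup.normalizer (V1 : Set G) ∧ V1 ⊓ Subgroup.centralizer (Z : Set G) = ⊥ ∧
        V1 ≠ ⊥ ∧ V1 ⊓ Subgroup.centralizer (A : Set G) = ⊥ := by
    intro Z hZS hZ0 hAZ hSZ hTZ
    have hle : ⁅V, Z⁆ ≤ V := commutator_le_of_le_normalizer (hZS.trans hSV)
    refine ⟨⁅V, Z⁆, ⟨⟨⟨fun a b => Subtype.ext (congrArg Subtype.val
        (mul_comm' (⟨a, hle a.2⟩ : V) ⟨b, hle b.2⟩) :)⟩⟩, fun a ha => hV.2 a (hle ha)⟩, hle,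
      H83.le_normalizer_commutator hAV hAZ, H83.le_normalizer_commutator hSV hSZ,
      H83.le_normalizer_commutator hTV hTZ, ?_, fun e => hZ0 ?_,
      eq_bot_iff.mpr ((inf_le_inf_right _ hle).trans hCV.le)⟩
    · refine eq_bot_iff.mpr fun x hx => ?_
      exact (centralizer_inf_commutator_eq_bot (hZS.trans hSV)
        (hcopSV.coprime_dvd_left (Subgroup.card_dvd_of_le hZS))).le ⟨⟨hle hx.1, hx.2⟩, hx.1⟩
    · exact eq_bot_iff.mpr fun z hz => hSC.le ⟨hZS hz, le_centralizer_of_commutator_eq_bot e hz⟩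
  rcases hform with hel | hsp
  · -- elementary abelian
    haveI := hel.1
    obtain ⟨V1, hV1, -, hAV1, hSV1, hTV1, hCS, hne1, hCA⟩ :=
      hsub S le_rfl hS0 hAS Subgroup.le_normalizer hTS
    have hcopA : ∀ (X : Subgroup G) (u : ℕ), IsPGroup u X → u.Prime → u.Coprime (p * q) →
        (Nat.card A).Coprime (Nat.card X) := fun X u hX hu hc => by
      haveI := Fact.mk hu
      obtain ⟨m, hm⟩ := IsPGroup.iff_card.mp hX
      rw [h.card_A, hm]
      exact hc.symm.pow_right m
    refine abelian_contra h hr hs hrs hV1 hel.2 hAV1 hSV1 hTV1 hAS hAT hTS hCA hSA hTA hCS hne1 hST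
      hcopST ?_ (hcopA S s hS hs hsA) (hcopA T t hT ht htA) hrA hsA
    obtain ⟨m', hm'⟩ := IsPGroup.iff_card.mp
      (show IsPGroup r V1 from fun v => ⟨1, Subtype.ext (by simpa using hV1.2 v v.2)⟩)
    obtain ⟨m, hm⟩ := IsPGroup.iff_card.mp hS
    rw [hm, hm']
    exact ((Nat.coprime_primes hs hr).mpr (Ne.symm hrs)).pow m m'
  · -- class two
    set Z := ⁅S, S⁆ with hZ
    have hcen : Z ≤ Subgroup.centralizer (S : Set G) := fun z hz =>
      Subgroup.mem_centralizer_iff.mpr fun x hx =>
        (Subgroup.mem_centralizer_iff.mp (hSF hx) z (hSSF hz)).symm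
    have hTZ : T ≤ Subgroup.centralizer (Z : Set G) := fun τ hτ =>
      Subgroup.mem_centralizer_iff.mpr fun z hz => Subgroup.mem_centralizer_iff.mp (hTF hτ) z (hSSF hz)
    have hZS : Z ≤ S := commutator_le_of_le_normalizer Subgroup.le_normalizer
    have hcz : ∀ a b x : G, a ∈ S → b ∈ S → x ∈ S → x * ⁅a, b⁆ * x⁻¹ = ⁅a, b⁆ :=
      fun a b x ha hb hx => by
        rw [Subgroup.mem_centralizer_iff.mp (hcen (Subgroup.commutator_mem_commutator ha hb)) x hx,
          mul_inv_cancel_right]
    have hexp : ∀ z ∈ Z, z ^ s = 1 := by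
      let M : Subgroup G :=
        { carrier := {z | z ∈ Z ∧ z ^ s = 1}
          one_mem' := ⟨one_mem Z, one_pow s⟩
          mul_mem' := fun {a b} ha hb => ⟨mul_mem ha.1 hb.1, by
            have hc : Commute a b := (Subgroup.mem_centralizer_iff.mp (hcen hb.1) a (hZS ha.1))
            rw [hc.mul_pow, ha.2, hb.2, one_mul]⟩
          inv_mem' := fun {a} ha => ⟨inv_mem ha.1, by rw [inv_pow, ha.2, inv_one]⟩ }
      have hle : Z ≤ M := Subgroup.commutator_le.mpr fun x hx y hy =>
        ⟨Subgroup.commutator_mem_commutator hx hy, by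
          have hpow : ∀ k : ℕ, ⁅x ^ k, y⁆ = ⁅x, y⁆ ^ k := by
            intro k
            induction k with
            | zero => simp
            | succ k ih =>
              rw [pow_succ, pow_succ', ← ih,
                show ⁅x ^ k * x, y⁆ = x ^ k * ⁅x, y⁆ * (x ^ k)⁻¹ * ⁅x ^ k, y⁆ by
                  simp only [commutatorElement_def]; group,
                hcz x y _ hx hy (pow_mem hx k)]
          rw [← hpow s, commutatorElement_eq_one_iff_mul_comm]
          exact (Subgroup.mem_centralizer_iff.mp (hSF hy) _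
            (⟨⟨x, hx⟩ ^ s, H24.pow_mem_frattini hS _, rfl⟩ : x ^ s ∈ F))⟩
      exact fun z hz => (hle hz).2
    have hZ0 : Z ≠ ⊥ := by
      intro e
      obtain ⟨-, hfr, hcm⟩ := hsp
      haveI := (Subgroup.nontrivial_iff_ne_bot S).mpr hS0
      haveI : Group.IsNilpotent S := hS.isNilpotent
      have hc : commutator S = ⊥ := Subgroup.map_injective S.subtype_injective
        (by rw [Subgroup.map_subtype_commutator, Subgroup.map_bot]; exact e)
      have := hS.center_nontrivial
      rw [← hcm, hc] at this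
      exact (not_nontrivial_iff_subsingleton.mpr inferInstance) this
    have hnS : ∀ X : Subgroup G, X ≤ Subgroup.normalizer (S : Set G) →
        X ≤ Subgroup.normalizer (Z : Set G) := fun X hX => H83.le_normalizer_commutator hX hX
    obtain ⟨V1, hV1, -, hAV1, hSV1, hTV1, hCZ, hne1, hCA⟩ :=
      hsub Z hZS hZ0 (hnS A hAS) (hnS S Subgroup.le_normalizer) (hnS T hTS)
    exact nonabelian_contra h hr hs ht hrs hst hV1 hS hT hAV1 hSV1 hTV1 hAS hAT hTS hCA hSA hTA hexp
      hcen hTZ hTT hCZ hne1 hST hrA hsA htA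

end Cfsg.Agent.H90.PQ
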