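import Cfsg.Agent.H90.PQ.Key
import Cfsg.Agent.H20.External

/-! A nonabelian group of order `pq` acting coprimely without fixed points on a solvable group
leaves Fitting height at most two. -/

set_option autoImplicit false
open scoped Pointwise commutatorElement IsMulCommutative

namespace Cfsg.Agent.H90.PQ

open Cfsg.Agent.H20

/-- A group is nilpotent if a nilpotent quotient is by a subgroup normalising a Sylow subgroup for
each prime. -/
theorem isNilpotent_of_normalizes {H : Type*} [Group H] [Finite H] (L : Subgroup H) [L.Normal]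
    [Group.IsNilpotent (H ⧸ L)]
    (hT : ∀ t, ∀ [Fact t.Prime], ∃ T : Sylow t H,
      L ≤ Subgroup.normalizer ((T : Subgroup H) : Set H)) : Group.IsNilpotent H := by
  refine (Group.isNilpotent_of_finite_tfae.out 0 3 rfl rfl).mpr fun t _ P => ?_
  obtain ⟨T, hLT⟩ := @hT t _
  have hTn : (T : Subgroup H).Normal := by
    let T' : Sylow t (H ⧸ L) := T.mapSurjective (QuotientGroup.mk'_surjective L)
    have hM : ((T : Subgroup H) ⊔ L).Normal := by
      have hn : (T' : Subgroup (H ⧸ L)).Normal := inferInstance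
      have := hn.comap (QuotientGroup.mk' L)
      rwa [show (T' : Subgroup (H ⧸ L)) = (T : Subgroup H).map (QuotientGroup.mk' L) from rfl,
        Subgroup.comap_map_eq, QuotientGroup.ker_mk'] at this
    haveI := hM
    have hTM : (T : Subgroup H) ≤ (T : Subgroup H) ⊔ L := le_sup_left
    have hn : (T.subtype hTM).toSubgroup.Normal :=
      Subgroup.normal_subgroupOf_of_le_normalizer (sup_le Subgroup.le_normalizer hLT)
    haveI := Sylow.characteristic_of_normal (T.subtype hTM) hn
    have h : ((T.subtype hTM).toSubgroup.map ((T : Subgroup H) ⊔ L).subtype).Normal := inferInstance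
    rwa [Sylow.coe_subtype, Subgroup.map_subgroupOf_eq_of_le hTM] at h
  obtain ⟨g, rfl⟩ := MulAction.exists_smul_eq H T P
  haveI := hTn
  rwa [Sylow.smul_eq_of_normal]

section Sylows

variable {Γ : Type*} [Group Γ] [Finite Γ]

/-- A subgroup is normalised-into by its Sylow subgroups. -/
theorem le_of_sylow_le {L N : Subgroup Γ}
    (h : ∀ s, ∀ [Fact s.Prime], ∀ P : Sylow s L, (P : Subgroup L).map L.subtype ≤ N) : L ≤ N := by
  have hdvd : Nat.card L ∣ Nat.card (N.subgroupOf L) := by
    rw [← Nat.factorization_prime_le_iff_dvd Nat.card_pos.ne' Nat.card_pos.ne']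
    intro s hs
    haveI := Fact.mk hs
    obtain ⟨P⟩ := (inferInstance : Nonempty (Sylow s L))
    refine (hs.pow_dvd_iff_le_factorization Nat.card_pos.ne').mp ?_
    rw [← P.card_eq_multiplicity]
    exact Subgroup.card_dvd_of_le fun x hx =>
      Subgroup.mem_subgroupOf.mpr (h s P (Subgroup.mem_map_of_mem L.subtype hx))
  have htop : N.subgroupOf L = ⊤ := Subgroup.eq_top_of_le_card _ (Nat.le_of_dvd Nat.card_pos hdvd)
  exact Subgroup.subgroupOf_eq_top.mp htop

/-- The nilpotent normal subgroup normalises invariant Sylow subgroups. -/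
theorem le_normalizer_sylow {A Q V H L T : Subgroup Γ} {p q r t : ℕ} [Fact t.Prime]
    (h : IsPQ A Q p q) (hr : r.Prime) (hV : Cfsg.IsElementaryAbelian r V) (hrA : r.Coprime (p * q))
    (hAV : A ≤ Subgroup.normalizer (V : Set Γ)) (hCV : V ⊓ Subgroup.centralizer (A : Set Γ) = ⊥)
    (hHV : H ≤ Subgroup.normalizer (V : Set Γ)) (hfaith : H ⊓ Subgroup.centralizer (V : Set Γ) = ⊥)
    (hHA : H ⊓ Subgroup.centralizer (A : Set Γ) = ⊥) (hcop : (Nat.card H).Coprime (p * q))
    (hLH : L ≤ H) (hAL : A ≤ Subgroup.normalizer (L : Set Γ))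
    (hHL : H ≤ Subgroup.normalizer (L : Set Γ)) (hLnil : Group.IsNilpotent L)
    (hrad : ∀ U : Subgroup Γ, U ≤ H → IsPGroup r U → H ≤ Subgroup.normalizer (U : Set Γ) →
      A ≤ Subgroup.normalizer (U : Set Γ) → U = ⊥)
    (hTH : T ≤ H) (hT : IsPGroup t T) (hAT : A ≤ Subgroup.normalizer (T : Set Γ))
    (hTmax : ∀ U : Subgroup Γ, U ≤ H → IsPGroup t U → T ≤ U → U = T) :
    L ≤ Subgroup.normalizer (T : Set Γ) := by
  refine le_of_sylow_le fun s _ P => ?_
  set S := (P : Subgroup L).map L.subtype with hS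
  have hSs : IsPGroup s S := P.isPGroup'.map _
  haveI : (P : Subgroup L).Characteristic := Sylow.characteristic_of_normal P inferInstance
  have hLS : ∀ X : Subgroup Γ, X ≤ Subgroup.normalizer (L : Set Γ) →
      X ≤ Subgroup.normalizer (S : Set Γ) := fun X hX =>
    hX.trans (H83.normalizer_le_map_char L _ inferInstance)
  have hSH : S ≤ H := (Subgroup.map_subtype_le _).trans hLH
  have hTS : T ≤ Subgroup.normalizer (S : Set Γ) := (hTH.trans (hLS H hHL))
  by_cases hst : s = t
  · subst hst
    have := hTmax (S ⊔ T) (sup_le hSH hTH) (hSs.to_sup_of_normal_left' hT hTS) le_sup_right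
    exact (le_sup_left.trans this.le).trans Subgroup.le_normalizer
  by_cases hS0 : S = ⊥
  · rw [hS0]; exact bot_le
  by_cases hT0 : T = ⊥
  · intro x _
    exact Subgroup.mem_normalizer_iff.mpr fun y => by simp [hT0]
  have hdvd : ∀ (X : Subgroup Γ) (u : ℕ), u.Prime → X ≤ H → IsPGroup u X → X ≠ ⊥ →
      u.Coprime (p * q) := fun X u hu hX hXu hX0 => by
    haveI := Fact.mk hu
    obtain ⟨m, hm⟩ := IsPGroup.iff_card.mp hXu
    have hm0 : m ≠ 0 := fun e => hX0 (Subgroup.card_eq_one.mp (by rw [hm, e, pow_zero]))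
    exact hcop.coprime_dvd_left
      ((dvd_pow_self u hm0).trans (hm ▸ Subgroup.card_dvd_of_le hX))
  have hsr : r ≠ s := fun e => hS0 (hrad S hSH (e ▸ hSs) (hLS H hHL) (hLS A hAL))
  have hkey := commutator_eq_bot h hr (Fact.out : s.Prime) (Fact.out : t.Prime) hsr hst hV hAV hCV
    hrA (hdvd S s Fact.out hSH hSs hS0) (hdvd T t Fact.out hTH hT hT0) _ S T rfl hSs hT (hLS A hAL)
    hAT hTS (hSH.trans hHV) (hTH.trans hHV) (eq_bot_iff.mpr ((inf_le_inf_right _ hSH).trans hHA.le))
    (eq_bot_iff.mpr ((inf_le_inf_right _ hTH).trans hHA.le))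
    (eq_bot_iff.mpr ((inf_le_inf_right _ hSH).trans hfaith.le))
  exact (Subgroup.commutator_eq_bot_iff_le_centralizer.mp hkey).trans
    (Subgroup.centralizer_le_normalizer _)

end Sylows

universe u v

/-- The induction. -/
theorem exists_nilpotent_series {A : Type v} [Group A] [Finite A] (Q0 : Subgroup A) [Q0.Normal]
    {p q : ℕ} (hp : p.Prime) (hq : q.Prime) (hpq : p ≠ q) (hA : Nat.card A = p * q)
    (hQ0 : Nat.card Q0 = q) (hna : ¬ ∀ a b : A, a * b = b * a) :
    ∀ (n : ℕ) (G : Type u) [Group G] [Finite G] [Group.IsSolvable G] (φ : A →* MulAut G),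
      Nat.card G = n → (Nat.card G).Coprime (p * q) → (∀ g, (∀ a, φ a g = g) → g = 1) →
      ∃ F : Subgroup G, ∃ _ : F.Normal, (∀ a, ∀ x ∈ F, φ a x ∈ F) ∧ Group.IsNilpotent F ∧
        Group.IsNilpotent (G ⧸ F) := by
  intro n
  induction n using Nat.strong_induction_on with
  | _ n ih =>
  intro G _ _ _ φ hn hcop hfpf
  rcases subsingleton_or_nontrivial G with hG | hG
  · exact ⟨⊤, inferInstance, fun a x _ => Subgroup.mem_top _, inferInstance, inferInstance⟩
  have hcop' : (Nat.card A).Coprime (Nat.card G) := by rw [hA]; exact hcop.symm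
  have hquot : ∀ (N : Subgroup G) [N.Normal] (hN : ∀ a, ∀ x ∈ N, φ a x ∈ N) (x : G ⧸ N),
      (∀ a, quotAction φ N hN a x = x) → x = 1 := by
    intro N _ hN x hx
    obtain ⟨u, rfl⟩ := QuotientGroup.mk_surjective x
    obtain ⟨c, hc, hcfix⟩ := Cfsg.Agent.H20.External.exists_fixed_mem_coset φ hcop'
      (Or.inr inferInstance) N hN (k := u) fun a => by
        have := (hx a).symm
        rw [quotAction_mk, QuotientGroup.eq] at this
        exact this
    rw [hfpf c hcfix, mul_one] at hc
    rw [QuotientGroup.eq_one_iff]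
    simpa using N.inv_mem hc
  -- a minimal invariant normal subgroup
  classical
  have hex : ∃ m, ∃ V : Subgroup G, V.Normal ∧ V ≠ ⊥ ∧ (∀ a, ∀ v ∈ V, φ a v ∈ V) ∧
      Nat.card V = m :=
    ⟨_, ⊤, inferInstance, top_ne_bot, fun a v _ => Subgroup.mem_top _, rfl⟩
  obtain ⟨V, hVn, hVne, hVφ, hVcard⟩ := Nat.find_spec hex
  have hmin : ∀ W : Subgroup G, W.Normal → (∀ a, ∀ w ∈ W, φ a w ∈ W) → W ≤ V → W ≠ ⊥ → W = V := by
    intro W hW hWφ hle hne
    refine Subgroup.eq_of_le_of_card_ge hle ?_
    rw [hVcard]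
    exact Nat.find_min' hex ⟨W, hW, hne, hWφ, rfl⟩
  haveI := hVn
  have hVab : ∀ a ∈ V, ∀ b ∈ V, a * b = b * a := by
    intro a ha b hb
    have hlt : ⁅V, V⁆ < V := Group.IsSolvable.commutator_lt_of_ne_bot hVne
    have h0 : ⁅V, V⁆ = ⊥ := by
      by_contra hne
      refine hlt.ne (hmin _ inferInstance (fun c w hw => ?_) hlt.le hne)
      have hle : (⁅V, V⁆).map (φ c).toMonoidHom ≤ ⁅V, V⁆ := by
        rw [Subgroup.map_commutator]
        exact Subgroup.commutator_mono (by rintro _ ⟨v, hv, rfl⟩; exact hVφ c v hv)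
          (by rintro _ ⟨v, hv, rfl⟩; exact hVφ c v hv)
      exact hle ⟨w, hw, rfl⟩
    exact Subgroup.mem_centralizer_iff.1 ((Subgroup.commutator_eq_bot_iff_le_centralizer.1 h0) hb) a ha
  have hVone : Nat.card V ≠ 1 := fun h => hVne (Subgroup.card_eq_one.1 h)
  obtain ⟨r, hr, hrdvd⟩ := Nat.exists_prime_and_dvd hVone
  haveI := Fact.mk hr
  have hexp : ∀ v ∈ V, v ^ r = 1 := by
    let W : Subgroup G :=
      { carrier := {v | v ∈ V ∧ v ^ r = 1}
        one_mem' := ⟨V.one_mem, one_pow r⟩
        mul_mem' := fun {a b} ha hb => ⟨V.mul_mem ha.1 hb.1, by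
          rw [(show Commute a b from hVab a ha.1 b hb.1).mul_pow, ha.2, hb.2, one_mul]⟩
        inv_mem' := fun {a} ha => ⟨V.inv_mem ha.1, by rw [inv_pow, ha.2, inv_one]⟩ }
    have hW : W = V := by
      refine hmin W ⟨fun w hw g => ⟨hVn.conj_mem w hw.1 g, by rw [conj_pow, hw.2]; group⟩⟩
        (fun a w hw => ⟨hVφ a w hw.1, by rw [← map_pow, hw.2, map_one]⟩) (fun w hw => hw.1) ?_
      obtain ⟨x, hx⟩ := exists_prime_orderOf_dvd_card' r hrdvd
      intro hbot
      have hmem : (x : G) ∈ W :=
        ⟨x.2, congrArg Subtype.val (hx ▸ pow_orderOf_eq_one x : x ^ r = 1)⟩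
      rw [hbot, Subgroup.mem_bot] at hmem
      rw [show x = 1 from Subtype.ext hmem, orderOf_one] at hx
      exact hr.ne_one hx.symm
    intro v hv
    exact ((show v ∈ W from hW.symm ▸ hv).2 : v ^ r = 1)
  have hrA : r.Coprime (p * q) := hcop.coprime_dvd_left (hrdvd.trans V.card_subgroup_dvd_card)
  obtain ⟨F1, hF1n, hF1φ, hF1nil, hF1q⟩ := ih _ (by
      rw [← hn, Subgroup.card_eq_card_quotient_mul_card_subgroup V]
      exact lt_mul_of_one_lt_right Nat.card_pos (lt_of_le_of_ne Nat.card_pos (Ne.symm hVone)))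
    (G ⧸ V) (quotAction φ V hVφ) rfl (hcop.coprime_dvd_left V.card_quotient_dvd_card) (hquot V hVφ)
  -- the group induced on `V`
  set C := Subgroup.centralizer (V : Set G)
  have hCφ : ∀ a, ∀ c ∈ C, φ a c ∈ C := fun a c hc => Subgroup.mem_centralizer_iff.2 fun v hv => by
    have h := congrArg (φ a) (Subgroup.mem_centralizer_iff.1 hc _ (hVφ a⁻¹ v hv))
    simpa only [map_mul, ← MulAut.mul_apply, ← map_mul φ, mul_inv_cancel, map_one,
      MulAut.one_apply] using h
  haveI : C.Normal := inferInstance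
  have hVC : V ≤ C := fun v hv => Subgroup.mem_centralizer_iff.2 fun w hw => hVab w hw v hv
  let H := G ⧸ C
  let ψ : A →* MulAut H := quotAction φ C hCφ
  obtain ⟨F2, hF2n, hF2φ, hF2nil, hF2q⟩ := ih _ (by
      rw [← hn, Subgroup.card_eq_card_quotient_mul_card_subgroup C]
      exact lt_mul_of_one_lt_right Nat.card_pos (lt_of_lt_of_le
        (lt_of_le_of_ne Nat.card_pos (Ne.symm hVone)) (Subgroup.card_le_of_le hVC)))
    H ψ rfl (hcop.coprime_dvd_left C.card_quotient_dvd_card) (hquot C hCφ)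
  -- an ambient group for the three pieces
  let cv : G →* MulAut V := MulAut.conjNormal
  let av : A →* MulAut V :=
    { toFun := fun a => resAut V (φ a) (hVφ a)
      map_one' := MulEquiv.ext fun v => Subtype.ext (by rw [resAut_apply, map_one]; rfl)
      map_mul' := fun a b => MulEquiv.ext fun v => Subtype.ext (by
        rw [resAut_apply, map_mul]; rfl) }
  have hav : ∀ a (v : V), ((av a v : V) : G) = φ a v := fun a v => rfl
  have hcv : ∀ a g, av a * cv g * (av a)⁻¹ = cv (φ a g) := fun a g => by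
    rw [mul_inv_eq_iff_eq_mul]
    exact MulEquiv.ext fun v => Subtype.ext (by
      simp only [MulAut.mul_apply, MulAut.conjNormal_apply, av, cv, MonoidHom.coe_mk, OneHom.coe_mk,
        resAut_apply, map_mul, map_inv])
  have hcvker : ∀ g, cv g = 1 ↔ g ∈ C := fun g => by
    rw [MulEquiv.ext_iff, Subgroup.mem_centralizer_iff]
    simp only [Subtype.ext_iff, cv, MulAut.conjNormal_apply, mul_inv_eq_iff_eq_mul, MulAut.one_apply,
      Subtype.forall, SetLike.mem_coe]
    exact forall₂_congr fun v _ => eq_comm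
  let Hol := V ⋊[MonoidHom.id (MulAut V)] MulAut V
  haveI : Finite (MulAut V) := Finite.of_injective (fun e : MulAut V => (e : V → V))
    DFunLike.coe_injective
  haveI : Finite Hol := External.finite_semidirect (MonoidHom.id (MulAut V))
  let Γ := Hol × A
  let iV : V →* Γ := (MonoidHom.inl Hol A).comp SemidirectProduct.inl
  let iA : A →* Γ := (SemidirectProduct.inr.comp av : A →* Hol).prod (MonoidHom.id A)
  let iG : G →* Γ := (MonoidHom.inl Hol A).comp (SemidirectProduct.inr.comp cv)
  have hiGker : C ≤ iG.ker := fun g hg => by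
    change iG g = 1
    change ((SemidirectProduct.inr (cv g) : Hol), (1 : A)) = 1
    rw [(hcvker g).mpr hg, map_one, Prod.mk_one_one]
  let iH : H →* Γ := QuotientGroup.lift C iG hiGker
  have hiHinj : Function.Injective iH := (injective_iff_map_eq_one iH).2 fun x hx => by
    induction x using QuotientGroup.induction_on with
    | H g =>
      rw [QuotientGroup.eq_one_iff, ← hcvker]
      exact SemidirectProduct.inr_injective (φ := MonoidHom.id (MulAut V))
        ((congrArg Prod.fst hx :).trans (map_one SemidirectProduct.inr).symm)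
  have hiAinj : Function.Injective iA := fun a b hab => congrArg Prod.snd hab
  have hiVinj : Function.Injective iV := fun a b hab =>
    SemidirectProduct.inl_injective (φ := MonoidHom.id (MulAut V)) (congrArg Prod.fst hab)
  have hAVconj : ∀ a v, iA a * iV v * (iA a)⁻¹ = iV (av a v) := fun a v => Prod.ext
    (External.conj_inl (MonoidHom.id (MulAut V)) (av a) v) (by change a * 1 * a⁻¹ = 1; group)
  have hGVconj : ∀ g v, iG g * iV v * (iG g)⁻¹ = iV (cv g v) := fun g v => Prod.ext
    (External.conj_inl (MonoidHom.id (MulAut V)) (cv g) v) (by change (1 : A) * 1 * 1⁻¹ = 1; group)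
  have hAGconj : ∀ a (x : H), iA a * iH x * (iA a)⁻¹ = iH (ψ a x) := fun a x => by
    induction x using QuotientGroup.induction_on with
    | H g =>
      rw [show ψ a (QuotientGroup.mk g) = QuotientGroup.mk (φ a g) from quotAction_mk φ C hCφ a g]
      refine Prod.ext ?_ (by change a * 1 * a⁻¹ = 1; group)
      change (SemidirectProduct.inr (av a) : Hol) * SemidirectProduct.inr (cv g) *
        (SemidirectProduct.inr (av a))⁻¹ = SemidirectProduct.inr (cv (φ a g))
      rw [← map_mul, ← map_inv, ← map_mul, hcv]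
  have hPQ : IsPQ iA.range (Q0.map iA) p q := by
    refine ⟨hp, hq, hpq, ?_, ?_, Subgroup.map_le_range _ _, ?_, fun hc => hna fun a b => ?_⟩
    · rw [← Nat.card_congr (MonoidHom.ofInjective hiAinj).toEquiv, hA]
    · rw [Subgroup.card_map_of_injective hiAinj, hQ0]
    · rw [Subgroup.le_normalizer_iff]
      rintro _ ⟨a, rfl⟩ _ ⟨b, hb, rfl⟩
      exact ⟨a * b * a⁻¹, (inferInstance : Q0.Normal).conj_mem b hb a, by simp⟩
    · exact hiAinj (by rw [map_mul, map_mul]; exact hc _ ⟨a, rfl⟩ _ ⟨b, rfl⟩)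
  have hcomm : ∀ {x y : Γ}, x * y = y * x → y * x * y⁻¹ = x := fun {x y} e => by
    rw [← e, mul_inv_cancel_right]
  have hVel : Cfsg.IsElementaryAbelian r iV.range := by
    refine ⟨⟨⟨fun x y => Subtype.ext ?_⟩⟩, ?_⟩
    · obtain ⟨_, v, rfl⟩ := x
      obtain ⟨_, w, rfl⟩ := y
      change iV v * iV w = iV w * iV v
      rw [← map_mul, ← map_mul, show v * w = w * v from Subtype.ext (hVab v v.2 w w.2)]
    · rintro _ ⟨v, rfl⟩
      rw [← map_pow, show v ^ r = 1 from Subtype.ext (hexp v v.2), map_one]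
  have hCV : iV.range ⊓ Subgroup.centralizer (iA.range : Set Γ) = ⊥ := by
    rw [eq_bot_iff]
    rintro _ ⟨⟨v, rfl⟩, hv⟩
    refine Subgroup.mem_bot.mpr (?_ : iV v = 1)
    rw [show v = 1 from Subtype.ext (hfpf v fun a => ?_), map_one]
    have e := hcomm (Subgroup.mem_centralizer_iff.mp hv _ ⟨a, rfl⟩).symm
    rw [hAVconj] at e
    rw [← hav, hiVinj e]
  have hHA : iH.range ⊓ Subgroup.centralizer (iA.range : Set Γ) = ⊥ := by
    rw [eq_bot_iff]
    rintro _ ⟨⟨x, rfl⟩, hx⟩
    refine Subgroup.mem_bot.mpr (?_ : iH x = 1)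
    rw [hquot C hCφ x fun a => hiHinj ?_, map_one]
    rw [← hAGconj]
    exact hcomm (Subgroup.mem_centralizer_iff.mp hx _ ⟨a, rfl⟩).symm
  have hfaith : iH.range ⊓ Subgroup.centralizer (iV.range : Set Γ) = ⊥ := by
    rw [eq_bot_iff]
    rintro _ ⟨⟨x, rfl⟩, hx⟩
    induction x using QuotientGroup.induction_on with
    | H g =>
      refine Subgroup.mem_bot.mpr ?_
      change iG g = 1
      refine hiGker ((hcvker g).mp (MulEquiv.ext fun v => hiVinj ?_))
      rw [← hGVconj, MulAut.one_apply]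
      exact hcomm (Subgroup.mem_centralizer_iff.mp hx _ ⟨v, rfl⟩)
  have hHV : iH.range ≤ Subgroup.normalizer (iV.range : Set Γ) := by
    rw [Subgroup.le_normalizer_iff]
    rintro _ ⟨x, rfl⟩ _ ⟨v, rfl⟩
    induction x using QuotientGroup.induction_on with
    | H g => exact ⟨cv g v, (hGVconj g v).symm⟩
  have hAV : iA.range ≤ Subgroup.normalizer (iV.range : Set Γ) := by
    rw [Subgroup.le_normalizer_iff]
    rintro _ ⟨a, rfl⟩ _ ⟨v, rfl⟩
    exact ⟨av a v, (hAVconj a v).symm⟩
  have hnormA : ∀ U : Subgroup H, (∀ a, ∀ x ∈ U, ψ a x ∈ U) →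
      iA.range ≤ Subgroup.normalizer ((U.map iH : Subgroup Γ) : Set Γ) := fun U hU => by
    rw [Subgroup.le_normalizer_iff]
    rintro _ ⟨a, rfl⟩ _ ⟨x, hx, rfl⟩
    exact ⟨ψ a x, hU a x hx, (hAGconj a x).symm⟩
  -- no invariant normal subgroup of order a power of `r`
  have hN : ∀ N : Subgroup H, N.Normal → IsPGroup r N → (∀ a, ∀ m ∈ N, ψ a m ∈ N) → N = ⊥ := by
    intro N hNn hNp hNψ
    haveI := hNn
    let M : Subgroup G := N.comap (QuotientGroup.mk' C)
    have hMφ : ∀ a, ∀ m ∈ M, φ a m ∈ M := fun a m hm => by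
      have := hNψ a _ hm
      simp only [ψ, QuotientGroup.mk'_apply, quotAction_mk] at this
      exact this
    let W : Subgroup G := V ⊓ Subgroup.centralizer (M : Set G)
    have hWφ : ∀ a, ∀ f ∈ W, φ a f ∈ W := fun a f hf =>
      ⟨hVφ a f hf.1, Subgroup.mem_centralizer_iff.2 fun m hm => by
        have h := congrArg (φ a) (Subgroup.mem_centralizer_iff.1 hf.2 _ (hMφ a⁻¹ m hm))
        simpa only [map_mul, ← MulAut.mul_apply, ← map_mul φ, mul_inv_cancel, map_one,
          MulAut.one_apply] using h⟩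
    haveI : M.Normal := inferInstance
    have hWne : W ≠ ⊥ := by
      let w : H →* MulAut V := QuotientGroup.lift C cv fun g hg =>
        MonoidHom.mem_ker.2 ((hcvker g).mpr hg)
      letI : MulAction N V := MulAction.compHom V (w.comp N.subtype)
      have hone : (1 : V) ∈ MulAction.fixedPoints N V := fun m => map_one (w m)
      obtain ⟨b, hb, hb1⟩ := hNp.exists_fixed_point_of_prime_dvd_card_of_fixed_point V hrdvd hone
      intro hbot
      refine hb1 (Subtype.ext ?_)
      have hmem : (b : G) ∈ W := ⟨b.2, Subgroup.mem_centralizer_iff.2 fun m hm => by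
        have h : (cv m b : G) = b := congrArg Subtype.val (hb ⟨QuotientGroup.mk m, hm⟩)
        rw [MulAut.conjNormal_apply] at h
        exact mul_inv_eq_iff_eq_mul.1 h⟩
      rw [hbot, Subgroup.mem_bot] at hmem
      exact hmem.symm
    have hW : W = V := hmin W inferInstance hWφ inf_le_left hWne
    rw [eq_bot_iff]
    intro x hx
    induction x using QuotientGroup.induction_on with
    | H g =>
      rw [Subgroup.mem_bot, QuotientGroup.eq_one_iff]
      refine Subgroup.mem_centralizer_iff.2 fun v hv => ?_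
      exact (Subgroup.mem_centralizer_iff.1 (hW.symm ▸ hv : v ∈ W).2 g hx).symm
  have hmapcomap : ∀ U : Subgroup Γ, U ≤ iH.range → (U.comap iH).map iH = U :=
    fun U hU => Subgroup.map_comap_eq_self hU
  -- `H` is nilpotent
  haveI := hF2q
  haveI := hF2n
  have hHnil : Group.IsNilpotent H := isNilpotent_of_normalizes F2 fun t _ => by
    obtain ⟨T, hT⟩ := Cfsg.Agent.H20.External.exists_invariant_sylow ψ
      (hcop'.coprime_dvd_right C.card_quotient_dvd_card) (Or.inr inferInstance) t
    refine ⟨T, fun x hx => ?_⟩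
    have key := le_normalizer_sylow (t := t) hPQ hr hVel hrA hAV hCV hHV hfaith hHA
      (L := F2.map iH) (T := (T : Subgroup H).map iH)
      (by
        rw [← Nat.card_congr (MonoidHom.ofInjective hiHinj).toEquiv]
        exact hcop.coprime_dvd_left C.card_quotient_dvd_card)
      (Subgroup.map_le_range _ _) (hnormA F2 hF2φ)
      (by
        rw [Subgroup.le_normalizer_iff]
        rintro _ ⟨y, rfl⟩ _ ⟨z, hz, rfl⟩
        exact ⟨y * z * y⁻¹, hF2n.conj_mem z hz y, by simp⟩)
      (by haveI := hF2nil; exact Group.nilpotent_of_surjective (iH.subgroupMap F2) (iH.subgroupMap_surjective F2))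
      (fun U hU hUr hHU hAU => by
        rw [← hmapcomap U hU]
        rw [hN (U.comap iH) ⟨fun y hy g => ?_⟩ (hUr.comap_of_injective iH hiHinj) fun a m hm => ?_,
          Subgroup.map_bot]
        · rw [Subgroup.mem_comap, map_mul, map_mul, map_inv]
          exact conj_mem_of_le_normalizer hHU ⟨g, rfl⟩ (Subgroup.mem_comap.mp hy)
        · rw [Subgroup.mem_comap, ← hAGconj]
          exact conj_mem_of_le_normalizer hAU ⟨a, rfl⟩ (Subgroup.mem_comap.mp hm))
      (Subgroup.map_le_range _ _) (T.isPGroup'.map iH) (hnormA _ hT)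
      (fun U hU hUt hTU => by
        rw [← hmapcomap U hU]
        refine congrArg _ (T.is_maximal' (hUt.comap_of_injective iH hiHinj) ?_)
        exact fun y hy => hTU ⟨y, hy, rfl⟩)
    have hx' := key ⟨x, hx, rfl⟩
    refine Subgroup.mem_normalizer_iff.mpr fun y => ?_
    have := Subgroup.mem_normalizer_iff.mp hx' (iH y)
    rw [← map_inv, ← map_mul, ← map_mul] at this
    rwa [Subgroup.mem_map_iff_mem hiHinj, Subgroup.mem_map_iff_mem hiHinj] at this
  -- conclusion
  haveI := hF1n
  let F : Subgroup G := F1.comap (QuotientGroup.mk' V) ⊓ C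
  have hFn : F.Normal := inferInstance
  refine ⟨F, hFn, fun a x hx => ⟨?_, hCφ a x hx.2⟩, ?_, ?_⟩
  · have := hF1φ a _ hx.1
    rwa [QuotientGroup.mk'_apply, quotAction_mk] at this
  · haveI := hF1nil
    refine Subgroup.isNilpotent_of_ker_le_center
      (((QuotientGroup.mk' V).comp F.subtype).codRestrict F1 fun x => x.2.1) ?_
    intro x hx
    have hxV : (x : G) ∈ V := (QuotientGroup.eq_one_iff _).1 (congrArg Subtype.val hx)
    exact Subgroup.mem_center_iff.2 fun y =>
      Subtype.ext (Subgroup.mem_centralizer_iff.1 y.2.2 x hxV).symm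
  · haveI := hF1q
    haveI := hHnil
    let π : G →* ((G ⧸ V) ⧸ F1) × (G ⧸ C) :=
      ((QuotientGroup.mk' F1).comp (QuotientGroup.mk' V)).prod (QuotientGroup.mk' C)
    have hker : π.ker = F := by
      ext x
      rw [MonoidHom.mem_ker, Prod.ext_iff]
      exact and_congr (QuotientGroup.eq_one_iff _) (QuotientGroup.eq_one_iff _)
    refine Subgroup.isNilpotent_of_ker_le_center (QuotientGroup.lift F π hker.ge) ?_
    intro x hx
    induction x using QuotientGroup.induction_on with
    | H g =>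
      rw [(QuotientGroup.eq_one_iff g).mpr (hker.le hx)]
      exact one_mem _

end Cfsg.Agent.H90.PQ
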