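import Cfsg.Agent.H90.PQ.Operator
import Cfsg.Agent.H20.FixedPoints

/-! Nonabelian groups of order `pq` acting coprimely. -/

set_option autoImplicit false
open scoped commutatorElement

namespace Cfsg.Agent.H90.PQ

open Cfsg.Agent.H20

variable {G : Type*} [Group G]

/-- `A` is nonabelian of order `pq` with normal subgroup `Q` of order `q`. -/
structure IsPQ (A Q : Subgroup G) (p q : ℕ) : Prop where
  hp : p.Prime
  hq : q.Prime
  hpq : p ≠ q
  card_A : Nat.card A = p * q
  card_Q : Nat.card Q = q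
  le : Q ≤ A
  le_normalizer : A ≤ Subgroup.normalizer (Q : Set G)
  nonab : ¬ ∀ a ∈ A, ∀ b ∈ A, a * b = b * a

namespace IsPQ

variable [Finite G] {A Q : Subgroup G} {p q : ℕ} (h : IsPQ A Q p q)
include h

theorem eq_Q_of_card {X : Subgroup G} (hX : X ≤ A) (hc : Nat.card X = q) : X = Q := by
  refine Subgroup.eq_of_le_of_card_ge (fun x hx => ?_) (by rw [hc, h.card_Q])
  haveI := Subgroup.normal_subgroupOf_of_le_normalizer h.le_normalizer
  set a : A := ⟨x, hX hx⟩
  have hQA : Nat.card (Q.subgroupOf A) = q := by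
    rw [Nat.card_congr (Subgroup.subgroupOfEquivOfLe h.le).toEquiv, h.card_Q]
  have hidx : Nat.card (A ⧸ Q.subgroupOf A) = p := by
    have := Subgroup.card_eq_card_quotient_mul_card_subgroup (Q.subgroupOf A)
    rw [h.card_A, hQA] at this
    exact (Nat.eq_of_mul_eq_mul_right h.hq.pos this).symm
  have h1 : (QuotientGroup.mk a : A ⧸ Q.subgroupOf A) ^ q = 1 := by
    rw [← QuotientGroup.mk_pow, show a ^ q = 1 from Subtype.ext (by
      simpa [a] using congrArg Subtype.val
        (show (⟨x, hx⟩ : X) ^ q = 1 by rw [← hc]; exact pow_card_eq_one')), QuotientGroup.mk_one]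
  have h2 : (QuotientGroup.mk a : A ⧸ Q.subgroupOf A) ^ p = 1 := by
    rw [← hidx]; exact pow_card_eq_one'
  have h3 : (QuotientGroup.mk a : A ⧸ Q.subgroupOf A) = 1 := by
    have := pow_gcd_eq_one.mpr ⟨h2, h1⟩
    rwa [(Nat.coprime_primes h.hp h.hq).mpr h.hpq, pow_one] at this
  exact Subgroup.mem_subgroupOf.mp ((QuotientGroup.eq_one_iff a).mp h3)

theorem cases {X : Subgroup G} (hX : X ≤ A) :
    X = ⊥ ∨ X = Q ∨ Nat.card X = p ∨ X = A := by
  have hd := Subgroup.card_dvd_of_le hX
  rw [h.card_A] at hd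
  obtain ⟨a, b, ha, hb, hab⟩ := dvd_mul.mp hd
  rcases (Nat.dvd_prime h.hp).mp ha with rfl | rfl <;>
    rcases (Nat.dvd_prime h.hq).mp hb with rfl | rfl
  · exact Or.inl (Subgroup.card_eq_one.mp (by omega))
  · exact Or.inr (Or.inl (h.eq_Q_of_card hX (by omega)))
  · exact Or.inr (Or.inr (Or.inl (by omega)))
  · exact Or.inr (Or.inr (Or.inr (Subgroup.eq_of_le_of_card_ge hX (by rw [h.card_A, hab]))))

theorem exists_P : ∃ P : Subgroup G, P ≤ A ∧ Nat.card P = p := by
  haveI := Fact.mk h.hp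
  obtain ⟨a, ha⟩ := exists_prime_orderOf_dvd_card' (G := A) p (h.card_A ▸ dvd_mul_right p q)
  exact ⟨Subgroup.zpowers (a : G), Subgroup.zpowers_le.mpr a.2, by
    rw [Nat.card_zpowers, Subgroup.orderOf_coe, ha]⟩

theorem card_ne {X : Subgroup G} (hc : Nat.card X = p) : X ≠ Q ∧ X ≠ A ∧ X ≠ ⊥ := by
  refine ⟨fun e => h.hpq (by rw [← hc, e, h.card_Q]), fun e => ?_, fun e => h.hp.ne_one (by
    rw [← hc, e, Subgroup.card_bot])⟩
  rw [e, h.card_A] at hc
  exact h.hq.ne_one ((Nat.mul_eq_left h.hp.ne_zero).mp hc)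

theorem sup_Q {P : Subgroup G} (hP : P ≤ A) (hc : Nat.card P = p) : P ⊔ Q = A := by
  rcases h.cases (sup_le hP h.le) with e | e | e | e
  · exact absurd (le_bot_iff.mp (le_sup_left.trans e.le)) (h.card_ne hc).2.2
  · exact absurd (Subgroup.eq_of_le_of_card_ge (le_sup_left.trans e.le) (by
      have := Subgroup.card_dvd_of_le (le_sup_left.trans e.le : P ≤ Q)
      rw [hc, h.card_Q] at this
      exact absurd ((Nat.prime_dvd_prime_iff_eq h.hp h.hq).mp this) h.hpq)) (h.card_ne hc).1
  · have := Subgroup.card_dvd_of_le (le_sup_right : Q ≤ P ⊔ Q)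
    rw [h.card_Q, e] at this
    exact absurd ((Nat.prime_dvd_prime_iff_eq h.hq h.hp).mp this) (Ne.symm h.hpq)
  · exact e

theorem sup_P {P P' : Subgroup G} (hP : P ≤ A) (hc : Nat.card P = p) (hP' : P' ≤ A)
    (hc' : Nat.card P' = p) (hne : P ≠ P') : P ⊔ P' = A := by
  rcases h.cases (sup_le hP hP') with e | e | e | e
  · exact absurd (le_bot_iff.mp (le_sup_left.trans e.le)) (h.card_ne hc).2.2
  · have := Subgroup.card_dvd_of_le (le_sup_left.trans e.le : P ≤ Q)
    rw [hc, h.card_Q] at this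
    exact absurd ((Nat.prime_dvd_prime_iff_eq h.hp h.hq).mp this) h.hpq
  · refine absurd ?_ hne
    rw [Subgroup.eq_of_le_of_card_ge (le_sup_left : P ≤ P ⊔ P') (by rw [hc, e])]
    exact (Subgroup.eq_of_le_of_card_ge (le_sup_right : P' ≤ P ⊔ P') (by rw [hc', e])).symm
  · exact e

/-- An element of `Q` normalising a subgroup of order `p` is trivial. -/
theorem eq_one_of_normalizes {P : Subgroup G} (hP : P ≤ A) (hc : Nat.card P = p) {u : G}
    (hu : u ∈ Q) (hn : u ∈ Subgroup.normalizer (P : Set G)) : u = 1 := by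
  by_contra hu1
  have hQz : Subgroup.zpowers u = Q := by
    refine Subgroup.eq_of_le_of_card_ge (Subgroup.zpowers_le.mpr hu) ?_
    have hd := Subgroup.card_dvd_of_le (Subgroup.zpowers_le.mpr hu)
    rw [h.card_Q] at hd ⊢
    rcases (Nat.dvd_prime h.hq).mp hd with e | e
    · rw [Subgroup.card_eq_one, Subgroup.zpowers_eq_bot] at e
      exact absurd e hu1
    · rw [e]
  have hdis : Disjoint Q P := Subgroup.disjoint_of_coprime_natCard
    (by rw [hc, h.card_Q]; exact (Nat.coprime_primes h.hq h.hp).mpr (Ne.symm h.hpq))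
  have hcent : P ≤ Subgroup.centralizer (Q : Set G) := by
    intro x hx
    rw [Subgroup.mem_centralizer_iff]
    intro v hv
    rw [← commutatorElement_eq_one_iff_mul_comm]
    refine Subgroup.disjoint_def.mp hdis ?_ ?_
    · rw [commutatorElement_def, mul_assoc, mul_assoc, ← mul_assoc x]
      exact mul_mem hv (conj_mem_of_le_normalizer h.le_normalizer (hP hx) (inv_mem hv))
    · have hvn : v ∈ Subgroup.normalizer (P : Set G) := by
        rw [← hQz] at hv
        exact Subgroup.zpowers_le.mpr hn hv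
      rw [commutatorElement_def]
      exact mul_mem ((Subgroup.mem_normalizer_iff.mp hvn x).mp hx) (inv_mem hx)
  apply h.nonab
  haveI : IsCyclic P := by haveI := Fact.mk h.hp; exact isCyclic_of_prime_card hc
  haveI : IsCyclic Q := by haveI := Fact.mk h.hq; exact isCyclic_of_prime_card h.card_Q
  have hPP : P ≤ Subgroup.centralizer (P : Set G) := fun x hx => Subgroup.mem_centralizer_iff.mpr
    fun y hy => congrArg Subtype.val (mul_comm' (⟨y, hy⟩ : P) ⟨x, hx⟩)
  have hQQ : Q ≤ Subgroup.centralizer (Q : Set G) := fun x hx => Subgroup.mem_centralizer_iff.mpr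
    fun y hy => congrArg Subtype.val (mul_comm' (⟨y, hy⟩ : Q) ⟨x, hx⟩)
  have hA : A ≤ Subgroup.centralizer (A : Set G) := by
    have hAQ : A ≤ Subgroup.centralizer (Q : Set G) := by
      rw [← h.sup_Q hP hc]; exact sup_le hcent hQQ
    have hAP : A ≤ Subgroup.centralizer (P : Set G) := by
      rw [← h.sup_Q hP hc]; exact sup_le hPP (Subgroup.le_centralizer_iff.mp hcent)
    rw [Subgroup.le_centralizer_iff] at hAQ hAP
    conv_lhs => rw [← h.sup_Q hP hc]
    exact sup_le hAP hAQ
  exact fun a ha b hb => (Subgroup.mem_centralizer_iff.mp (hA hb) a ha)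

/-- `p` divides `q - 1`. -/
theorem modEq : q ≡ 1 [MOD p] := by
  obtain ⟨P, hP, hc⟩ := h.exists_P
  haveI := Fact.mk h.hp
  have hPQ : P ≤ Subgroup.normalizer (Q : Set G) := hP.trans h.le_normalizer
  letI : MulAction P Q := MulAction.compHom Q (conjAut hPQ)
  have hfix : MulAction.fixedPoints P Q = {1} := by
    ext v
    refine ⟨fun hv => Subtype.ext (h.eq_one_of_normalizes hP hc v.2 ?_), ?_⟩
    · refine Subgroup.centralizer_le_normalizer _ (Subgroup.mem_centralizer_iff.mpr fun x hx => ?_)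
      have : ((conjAut hPQ ⟨x, hx⟩ v : Q) : G) = v := congrArg Subtype.val (hv ⟨x, hx⟩)
      rw [coe_conjAut] at this
      exact mul_inv_eq_iff_eq_mul.mp this
    · rintro rfl x
      exact map_one (conjAut hPQ x)
  have := (IsPGroup.of_card (n := 1) (by rw [hc, pow_one]) : IsPGroup p P).card_modEq_card_fixedPoints Q
  rwa [h.card_Q, hfix, Nat.card_eq_one_iff_unique.mpr ⟨inferInstance, ⟨⟨1, rfl⟩⟩⟩] at this

/-- The Fermat exception does not arise for `Q` when `p ≠ 2`. -/
theorem not_fermat (hp2 : p ≠ 2) : ¬ ∃ n : ℕ, q = 2 ^ n + 1 := by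
  rintro ⟨n, hn⟩
  have := (Nat.modEq_iff_dvd' h.hq.one_le).mp h.modEq.symm
  rw [hn, Nat.add_sub_cancel] at this
  exact hp2 ((Nat.prime_dvd_prime_iff_eq h.hp Nat.prime_two).mp (h.hp.dvd_of_dvd_pow this))

/-- The derived subgroup of `A` is `Q`. -/
theorem Q_le_ker {M : Type*} [CommGroup M] (f : A →* M) : ∀ (u : G) (hu : u ∈ Q), f ⟨u, h.le hu⟩ = 1 := by
  intro u hu
  obtain ⟨P, hP, hc⟩ := h.exists_P
  let K : Subgroup G := ((f.ker).map A.subtype) ⊓ Q
  have hK : K = Q := by
    refine Subgroup.eq_of_le_of_card_ge inf_le_right ?_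
    have hd := Subgroup.card_dvd_of_le (inf_le_right : K ≤ Q)
    rw [h.card_Q] at hd ⊢
    rcases (Nat.dvd_prime h.hq).mp hd with e | e
    · rw [Subgroup.card_eq_one] at e
      obtain ⟨v, hv, hv1⟩ : ∃ v ∈ Q, v ≠ 1 := by
        by_contra hcon
        simp only [not_exists, not_and, not_not] at hcon
        have : Q = ⊥ := eq_bot_iff.mpr fun x hx => Subgroup.mem_bot.mpr (hcon x hx)
        exact h.hq.ne_one (by rw [← h.card_Q, this, Subgroup.card_bot])
      obtain ⟨x, hx, hvx⟩ : ∃ x ∈ P, x * v ≠ v * x := by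
        by_contra hcon
        simp only [not_exists, not_and, not_not] at hcon
        exact hv1 (h.eq_one_of_normalizes hP hc hv (Subgroup.centralizer_le_normalizer _
          (Subgroup.mem_centralizer_iff.mpr hcon)))
      refine absurd (commutatorElement_eq_one_iff_mul_comm.mp ?_) hvx
      have hmem : ⁅x, v⁆ ∈ K := ⟨⟨⁅(⟨x, hP hx⟩ : A), ⟨v, h.le hv⟩⁆, by
        rw [SetLike.mem_coe, MonoidHom.mem_ker, map_commutatorElement, commutatorElement_eq_one_iff_mul_comm]
        exact mul_comm _ _, by simp [commutatorElement_def]⟩, by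
        rw [commutatorElement_def]
        exact Q.mul_mem (conj_mem_of_le_normalizer h.le_normalizer (hP hx) hv) (Q.inv_mem hv)⟩
      have hmem' := hmem
      simp only [K] at hmem'
      rwa [e, Subgroup.mem_bot] at hmem'
    · rw [e]
  obtain ⟨⟨_, _⟩, hk, e⟩ := (hK.ge hu).1
  obtain rfl : _ = u := e
  exact hk

theorem isSolvable : Group.IsSolvable A := by
  haveI : IsCyclic Q := by haveI := Fact.mk h.hq; exact isCyclic_of_prime_card h.card_Q
  haveI := Subgroup.normal_subgroupOf_of_le_normalizer h.le_normalizer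
  haveI : Group.IsSolvable (Q.subgroupOf A) := Group.isSolvable_of_comm fun a b =>
    (Subgroup.subgroupOfEquivOfLe h.le).injective (by rw [map_mul, map_mul, mul_comm'])
  haveI : Group.IsSolvable (A ⧸ Q.subgroupOf A) := by
    haveI := Fact.mk h.hp
    have hidx : Nat.card (A ⧸ Q.subgroupOf A) = p := by
      have := Subgroup.card_eq_card_quotient_mul_card_subgroup (Q.subgroupOf A)
      rw [h.card_A, Nat.card_congr (Subgroup.subgroupOfEquivOfLe h.le).toEquiv, h.card_Q] at this
      exact (Nat.eq_of_mul_eq_mul_right h.hq.pos this).symm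
    haveI := isCyclic_of_prime_card hidx
    exact Group.isSolvable_of_comm fun a b => mul_comm' a b
  refine Group.isSolvable_of_ker_le_range (Q.subgroupOf A).subtype (QuotientGroup.mk' (Q.subgroupOf A)) ?_
  rw [Subgroup.range_subtype, QuotientGroup.ker_mk']

end IsPQ

end Cfsg.Agent.H90.PQ
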